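import Cfsg.Agent.J4.MB

/-!
# Groups of type `J₄`: the local facts used for the non-local maximal subgroups
-/

set_option autoImplicit false
set_option linter.unusedSectionVars false

namespace Cfsg.Agent.J4U

open Cfsg.Agent.J4 Cfsg.Agent.M24 Cfsg.Agent.TT Cfsg.Agent.GT Subgroup MulAction
open scoped Pointwise

/-- Local facts on a group of type `J₄`. -/
structure JF (G : Type*) [Group G] : Prop where
  card : Nat.card G = 86775571046077562880
  okB : ∀ K : Subgroup G, okB (Nat.card K)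
  big : ∀ t ∈ lBig, ∀ x : G, orderOf x = t.1 → C1[x] = zpowers x ∧ Nat.card N[zpowers x] = t.1 * t.2
  s11 : ∀ K : Subgroup G, Nat.card K % 1331 = 0 → ∃ d ∈ dv 240, sv (Nat.card K) 1331 (1331 * d)
  c11 : ∀ U : Subgroup G, IsPGroup 11 U → ∀ x ∈ U, ∀ y ∈ U, x * y ≠ y * x → Nat.card C1[x] = 242
  c7 : ∀ x : G, orderOf x = 7 → Nat.card C1[x] = 840 ∧ Nat.card N[zpowers x] = 2520
  c5 : ∀ x : G, orderOf x = 5 → Nat.card C1[x] = 6720
  c3 : ∀ x : G, orderOf x = 3 → Nat.card C1[x] ∣ 21799895040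
  i3 : ∀ x : G, orderOf x = 3 → {j : G | j * j = 1 ∧ j * x = x * j}.ncard ≤ 2312
  n3 : ∀ P : Subgroup G, Nat.card P = 27 → Nat.card N[P] = 864

theorem ncard_inn : {r : R | r = 1 ∨ Inn r}.ncard ≤ 1156 := by
  have h := sum_inn_inv (Ψ := fun _ => 1) fun _ _ _ => rfl
  rw [sm_one] at h
  have : {r : R | r = 1 ∨ Inn r} = insert 1 {r | Inn r} := rfl
  rw [this]
  exact (Set.ncard_insert_le _ _).trans (by omega)

theorem ncard_le_two_mul {α β : Type*} [Finite α] [Finite β] {S : Set α} {T : Set β} (f : α → β) (g : α → α)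
    (h1 : ∀ a ∈ S, f a ∈ T) (h2 : ∀ a ∈ S, ∀ b ∈ S, f a = f b → b = a ∨ b = g a) : S.ncard ≤ 2 * T.ncard := by
  classical
  rcases S.eq_empty_or_nonempty with rfl | ⟨a0, -⟩
  · simp
  let σ : β → α := fun t => if h : ∃ a ∈ S, f a = t then h.choose else a0
  have : S ⊆ σ '' T ∪ (fun t => g (σ t)) '' T := fun a ha => by
    have e : ∃ b ∈ S, f b = f a := ⟨a, ha, rfl⟩
    have e1 : σ (f a) = e.choose := dif_pos e
    rcases h2 _ e.choose_spec.1 a ha e.choose_spec.2 with k | k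
    · exact .inl ⟨f a, h1 a ha, e1.trans k.symm⟩
    · exact .inr ⟨f a, h1 a ha, (congrArg g e1).trans k.symm⟩
  exact (Set.ncard_le_ncard this).trans ((Set.ncard_union_le _ _).trans (by
    have := Set.ncard_image_le (f := σ) (s := T)
    have := Set.ncard_image_le (f := fun t => g (σ t)) (s := T)
    omega))

theorem jf_of {G H : Type*} [Group G] [Group H] [Finite G] {ι : H →* G} {z ω : H} {s : ℕ → H} {Λ : H →* R}
    {M : GM ι z ω s Λ} {y g : H} {T : ℕ → H} {π : N[M.V] →* M24} {κ : M24 →* N[M.V]} (J : JD M y g T π κ)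
    (hG : ∀ g : M24, g * g = 1 → g ≠ 1 → J.mc.Good g) : JF G := by
  have := M.finH
  obtain ⟨x, v, D⟩ := J.exists_xd
  have E := J.el D
  refine ⟨J.card_G, J.okB hG, fun t ht x o => (J.big' hG ht o).2, fun K h => ?_, fun U hU a ha b hb n => ?_,
    fun w o => ⟨J.card_c7 w o, ?_⟩, J.card_c5, fun _ => J.card_c3_dvd, fun w o => ?_, fun P hP => ?_⟩
  · obtain ⟨Q, hQ⟩ := exists_syl (p := 11) (by norm_num) K
    obtain ⟨n, rfl⟩ := J.conj_U hG D h hQ
    obtain ⟨d, d1, -, d3⟩ := J.sv11 hG D (conj_le_iff.1 hQ.le)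
    exact ⟨d, d1, by rwa [card_conj] at d3⟩
  · obtain ⟨c, -, hc⟩ := syl_exists_conj_le (by norm_num) E.syl hU le_top
    rw [← card_cent_of_isConj (isConj_iff.2 ⟨c, rfl⟩)]
    refine J.nc11 hG D (hc (conj_mem_conj.2 ha)) fun k => n ?_
    have := (zp_comm k (OC_le _ (hc (conj_mem_conj.2 hb)))).eq
    rw [conj_mul, conj_mul] at this
    simpa using this
  · obtain ⟨q, ψ, P⟩ := J.exists_pt
    rw [(card_cent_prime (by norm_num) (by rw [J.card_G]; norm_num) J.ord_x7 o).2, (J.norm7 P).2]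
  · obtain ⟨c, rfl⟩ := isConj_iff.1 (J.conj_ω3 o)
    have h1 : {j : G | j * j = 1 ∧ j * (c * ι ω * c⁻¹) = c * ι ω * c⁻¹ * j} ⊆
        (fun l => c * ι l * c⁻¹) '' {l : H | l * l = 1 ∧ l * ω = ω * l} := fun j hj => by
      have e : c⁻¹ * j * c * ι ω = ι ω * (c⁻¹ * j * c) := by
        calc _ = c⁻¹ * (j * (c * ι ω * c⁻¹)) * c := by group
          _ = _ := by rw [hj.2]; group
      obtain ⟨l, hl⟩ := M.surj _ (J.cent_ω e)
      refine ⟨l, ⟨M.inj ?_, M.inj ?_⟩, by simp only [hl]; group⟩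
      · rw [map_mul, hl, map_one]
        calc _ = c⁻¹ * (j * j) * c := by group
          _ = _ := by rw [hj.1]; group
      · rw [map_mul, map_mul, hl, e]
    refine (Set.ncard_le_ncard h1).trans ((Set.ncard_image_le (Set.toFinite _)).trans ((ncard_le_two_mul
      (T := {r : R | r = 1 ∨ Inn r}) Λ (fun l => l * z) (fun a ha => ?_) fun a ha b hb e => ?_).trans ?_))
    · by_cases k : Λ a = 1
      · exact .inl k
      · exact .inr ⟨M.mem a, by rw [← map_mul, ha.1, map_one], k, (ou_eq_zero (M.mem a)).2 (by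
          rw [← M.Λω, ← map_mul, ha.2, map_mul])⟩
    · rcases M.ker_norm (mul_mem (inv_mem (M.norm_of_comm ha.2)) (M.norm_of_comm hb.2))
        (by rw [map_mul, map_inv, e, inv_mul_cancel]) with k | k
      · exact .inl (inv_mul_eq_one.1 k).symm
      · exact .inr (by rw [← k, mul_inv_cancel_left])
    · have := ncard_inn
      omega
  · obtain ⟨Q, hQ, hc⟩ := M.exists_R0
    have h1 := J.syl_R0 hQ hc
    obtain ⟨a, -, rfl⟩ := syl_exists_conj Nat.prime_three h1 (syl_of_card_le Nat.prime_three h1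
      (IsPGroup.of_card (n := 3) hP) le_top (by rw [card_map_inj M.inj, hc, hP]))
    rw [← conj_normalizer, card_conj, J.card_norm_R0 hQ hc]

theorem jf_of_type {G : Type*} [Group G] [Finite G] [IsSimpleGroup G] (hG : ¬ IsMulCommutative G)
    (hJ : IsOfJankoFourType G) : JF G := by
  obtain ⟨z, hJ⟩ := hJ
  obtain ⟨ω, s, Λ, M, y, g, T, π, κ, J, h⟩ := exists_jg hG hJ
  exact jf_of J h

/-- The divisors of `27·5·7·11³`. -/
def l64 : List ℕ := dv 27 >>= fun a => dv 35 >>= fun b => [a * b, a * b * 11, a * b * 121, a * b * 1331]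

theorem exists_fac {m : ℕ} (h : m ∣ 86775571046077562880) :
    ∃ a < 22, ∃ b ∈ l64, ∃ c ∈ l32, m = 2 ^ a * (b * c) := by
  rw [show 86775571046077562880 = 2 ^ 21 * (27 * 35 * 11 ^ 3 * (23 * (29 * (31 * (37 * 43))))) by norm_num] at h
  obtain ⟨a, n, ha, hn, rfl⟩ := Nat.dvd_mul.1 h
  obtain ⟨b, c, hb, hc, rfl⟩ := Nat.dvd_mul.1 hn
  obtain ⟨i, hi, rfl⟩ := (Nat.dvd_prime_pow Nat.prime_two).1 ha
  obtain ⟨b1, b2, h1, h2, rfl⟩ := Nat.dvd_mul.1 hb
  obtain ⟨b3, b4, h3, h4, rfl⟩ := Nat.dvd_mul.1 h1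
  obtain ⟨j, hj, rfl⟩ := (Nat.dvd_prime_pow (by norm_num : Nat.Prime 11)).1 h2
  refine ⟨i, by omega, _, ?_, c, mem_l32 hc, rfl⟩
  simp only [l64, List.bind_eq_flatMap, List.mem_flatMap]
  refine ⟨b3, mem_dv (by norm_num) h3, b4, mem_dv (by norm_num) h4, ?_⟩
  interval_cases j <;> simp

theorem sieve3 : ∀ a < 22, ∀ b ∈ l64, ∀ c ∈ l32, (c % (29 * 37 * 43) = 0 ∨ c % (23 * 29 * 31) = 0 ∨
    c % (23 * 29 * 43) = 0) → okB (2 ^ a * (b * c)) →
    2 ^ a * (b * c) * 2 = 86775571046077562880 ∨ 2 ^ a * (b * c) = 86775571046077562880 := by decide +kernel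

theorem top_of_card {G : Type*} [Group G] [Finite G] [IsSimpleGroup G] (F : JF G) {K : Subgroup G}
    (h : Nat.card K * 2 = 86775571046077562880 ∨ Nat.card K = 86775571046077562880) : K = ⊤ := by
  rcases h with h | h
  · have h1 := K.card_mul_index
    rw [F.card, ← h] at h1
    have h2 : K.index = 2 := Nat.eq_of_mul_eq_mul_left Nat.card_pos h1
    rcases (normal_of_index_eq_two h2).eq_bot_or_eq_top with e | e
    · rw [e, card_bot] at h; omega
    · exact e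
  · exact eq_top_of_card_eq K (h.trans F.card.symm)

theorem mod_l32 : ∀ a < 22, ∀ b ∈ l64, ∀ n ∈ [29 * 37 * 43, 23 * 29 * 31, 23 * 29 * 43], Nat.Coprime n (2 ^ a * b) := by
  decide +kernel

/-- A subgroup whose order is divisible by `29·37·43`, by `23·29·31` or by `23·29·43` is the whole group. -/
theorem JF.top3 {G : Type*} [Group G] [Finite G] [IsSimpleGroup G] (F : JF G) {K : Subgroup G}
    (h : 29 * 37 * 43 ∣ Nat.card K ∨ 23 * 29 * 31 ∣ Nat.card K ∨ 23 * 29 * 43 ∣ Nat.card K) : K = ⊤ := by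
  obtain ⟨a, ha, b, hb, c, hc, e⟩ := exists_fac (F.card ▸ card_subgroup_dvd_card K)
  have h1 := F.okB K
  refine top_of_card F ?_
  rw [e] at h h1 ⊢
  rw [← mul_assoc] at h
  refine sieve3 a ha b hb c hc ?_ h1
  exact h.imp (fun k => Nat.mod_eq_zero_of_dvd ((mod_l32 a ha b hb _ (by simp)).dvd_of_dvd_mul_left k)) fun h =>
    h.imp (fun k => Nat.mod_eq_zero_of_dvd ((mod_l32 a ha b hb _ (by simp)).dvd_of_dvd_mul_left k))
      fun k => Nat.mod_eq_zero_of_dvd ((mod_l32 a ha b hb _ (by simp)).dvd_of_dvd_mul_left k)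

theorem JF.top3' {G : Type*} [Group G] [Finite G] [IsSimpleGroup G] (F : JF G) {K : Subgroup G}
    (h1 : 29 ∣ Nat.card K) (h2 : 37 ∣ Nat.card K) (h3 : 43 ∣ Nat.card K) : K = ⊤ :=
  F.top3 (.inl (Nat.Coprime.mul_dvd_of_dvd_of_dvd (by norm_num)
    (Nat.Coprime.mul_dvd_of_dvd_of_dvd (by norm_num) h1 h2) h3))

end Cfsg.Agent.J4U
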