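import Cfsg.Agent.J4U.D

/-!
# Certificates for the subgroup `U₃(3)` of `J₄`
-/

set_option autoImplicit false

namespace Cfsg.Agent.J4U

open Cfsg.Agent.J4M Cfsg.Agent.M24 Cfsg.Agent.TT Cfsg.Agent.GT Subgroup

theorem u_E0 : lall uE0 (cosChk 29 3 43 1 [uSa, uSb] [uY1, uY2, uB, uW] uV) = true := by
  decide +kernel
theorem u_E1 : lall uE1 (cosChk 29 3 43 1 [uSa, uSb] [uY1, uY2, uB, uW] uV) = true := by
  decide +kernel
theorem u_F0 : mapK (pw mm mone [uY1, uY2, uB]) uWS (fun S => mapK (pw mm mone [uY1, uY2, uB]) uWT fun T => lall uF0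
  (invChk S T uJ [uY1, uY2, uB, uW] uA uG uGi)) = true := by
  decide +kernel
theorem u_F1 : mapK (pw mm mone [uY1, uY2, uB]) uWS (fun S => mapK (pw mm mone [uY1, uY2, uB]) uWT fun T => lall uF1
  (invChk S T uJ [uY1, uY2, uB, uW] uA uG uGi)) = true := by
  decide +kernel
theorem u_F2 : mapK (pw mm mone [uY1, uY2, uB]) uWS (fun S => mapK (pw mm mone [uY1, uY2, uB]) uWT fun T => lall uF2
  (invChk S T uJ [uY1, uY2, uB, uW] uA uG uGi)) = true := by
  decide +kernel
theorem u_F3 : mapK (pw mm mone [uY1, uY2, uB]) uWS (fun S => mapK (pw mm mone [uY1, uY2, uB]) uWT fun T => lall uF3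
  (invChk S T uJ [uY1, uY2, uB, uW] uA uG uGi)) = true := by
  decide +kernel

end Cfsg.Agent.J4U
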