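import Cfsg.Agent.J4U.D

/-!
# Certificates for the subgroup `U₃(3)` of `J₄`
-/

set_option autoImplicit false

namespace Cfsg.Agent.J4U

open Cfsg.Agent.J4M Cfsg.Agent.M24 Cfsg.Agent.TT Cfsg.Agent.GT Subgroup

theorem u_F4 : mapK (pw mm mone [uY1, uY2, uB]) uWS (fun S => mapK (pw mm mone [uY1, uY2, uB]) uWT fun T => lall uF4
  (invChk S T uJ [uY1, uY2, uB, uW] uA uG uGi)) = true := by
  decide +kernel
theorem u_F5 : mapK (pw mm mone [uY1, uY2, uB]) uWS (fun S => mapK (pw mm mone [uY1, uY2, uB]) uWT fun T => lall uF5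
  (invChk S T uJ [uY1, uY2, uB, uW] uA uG uGi)) = true := by
  decide +kernel
theorem u_F6 : mapK (pw mm mone [uY1, uY2, uB]) uWS (fun S => mapK (pw mm mone [uY1, uY2, uB]) uWT fun T => lall uF6
  (invChk S T uJ [uY1, uY2, uB, uW] uA uG uGi)) = true := by
  decide +kernel
theorem u_F7 : mapK (pw mm mone [uY1, uY2, uB]) uWS (fun S => mapK (pw mm mone [uY1, uY2, uB]) uWT fun T => lall uF7
  (invChk S T uJ [uY1, uY2, uB, uW] uA uG uGi)) = true := by
  decide +kernel
theorem u_F8 : mapK (pw mm mone [uY1, uY2, uB]) uWS (fun S => mapK (pw mm mone [uY1, uY2, uB]) uWT fun T => lall uF8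
  (invChk S T uJ [uY1, uY2, uB, uW] uA uG uGi)) = true := by
  decide +kernel

end Cfsg.Agent.J4U
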