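import Cfsg.Agent.J4U.A

/-!
# Groups of type `J₄`: subgroups of order `12144` are maximal
-/

set_option autoImplicit false
set_option linter.unusedSectionVars false

namespace Cfsg.Agent.J4U

open Cfsg.Agent.J4 Cfsg.Agent.M24 Cfsg.Agent.TT Cfsg.Agent.GT Subgroup MulAction
open scoped Pointwise

theorem rel_aut {G : Type*} [Group G] [Finite G] {x : G} {p : ℕ} (hp : p.Prime) (ox : orderOf x = p)
    (X : Subgroup G) : ∃ e e0, e ∣ e0 ∧ e0 ∣ p - 1 ∧ Nat.card N[zpowers x] = Nat.card C1[x] * e0 ∧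
      Nat.card ↥(X ⊓ N[zpowers x]) = Nat.card ↥(X ⊓ C1[x]) * e := by
  have h1 := (zpowers x).normalizerMonoidHom_ker
  refine ⟨Nat.card ((X.subgroupOf _).map (zpowers x).normalizerMonoidHom),
    Nat.card (zpowers x).normalizerMonoidHom.range, card_dvd_of_le (map_le_range _ _), ?_, ?_, ?_⟩
  · rw [← Nat.totient_prime hp, ← ox, ← Nat.card_zpowers, ← IsCyclic.card_mulAut]
    exact card_subgroup_dvd_card _
  · rw [← index_ker, h1, ← cent_zpowers, ← card_mul_relIndex (cent_le_norm (zpowers x))]; rfl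
  · rw [← card_subgroupOf', ← card_map_mul_card_inf_ker (zpowers x).normalizerMonoidHom, h1, mul_comm,
      ← cent_zpowers, inf_comm X, ← card_subgroupOf (inf_le_left.trans (cent_le_norm (zpowers x)))]
    rfl

theorem sieveP : ∀ a < 22, ∀ b ∈ l64, ∀ c ∈ l32, 2 ^ a * (b * c) % 12144 = 0 → okB (2 ^ a * (b * c)) →
    sv (2 ^ a * (b * c)) 23 506 → sv (2 ^ a * (b * c)) 11 44 → 2 ^ a * (b * c) % 121 = 0 ∨ 2 ^ a * (b * c) = 12144 := by
  decide +kernel

section
variable {G : Type*} [Group G] [Finite G] [IsSimpleGroup G] (F : JF G) {u h y c f : G}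
  (oh : orderOf h = 22) (oy : y ^ 11 = 1) (oc : c ^ 11 = 1) (c1 : c ≠ 1)
  (hc : h ^ 2 * y = c * (y * h ^ 2)) (cx : c * h ^ 2 = h ^ 2 * c) (cy : c * y = y * c)
include F oh oy oc c1 hc cx cy

theorem c242 : Nat.card C1[h ^ 2] = 242 := by
  have : Fact (Nat.Prime 11) := ⟨by norm_num⟩
  have pz : ∀ a : G, a ^ 11 = 1 → IsPGroup 11 (zpowers a) := fun a e =>
    IsPGroup.iff_card.2 (by
      rw [Nat.card_zpowers]
      rcases (Nat.dvd_prime (by norm_num)).1 (orderOf_dvd_of_pow_eq_one e) with k | k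
      · exact ⟨0, k⟩
      · exact ⟨1, k⟩)
  have x11 : (h ^ 2) ^ 11 = 1 := by rw [← pow_mul, show 2 * 11 = orderOf h from oh.symm, pow_orderOf_eq_one]
  have nz : ∀ a : G, c * a = a * c → zpowers a ≤ N[zpowers c] := fun a e =>
    le_norm_of_cent (by rw [cent_zpowers]; exact zpowers_le.2 (mem_cent1.2 e.symm))
  have p1 := (pz c oc).to_sup_of_normal_left' (pz y oy) (nz y cy)
  refine F.c11 _ (p1.to_sup_of_normal_left' (pz _ x11) (zpowers_le.2 (mem_normalizer_of_conj_le ?_))) _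
    (mem_sup_right (mem_zpowers _)) y (mem_sup_left (mem_sup_right (mem_zpowers _))) fun e => c1 ?_
  · rw [conj_sup, conj_zpowers, conj_zpowers, ← cx, hc, mul_inv_cancel_right, ← mul_assoc, mul_inv_cancel_right]
    exact sup_le le_sup_left (zpowers_le.2 (mul_mem (mem_sup_left (mem_zpowers _)) (mem_sup_right (mem_zpowers _))))
  · rw [e] at hc
    exact (mul_eq_right.1 hc.symm)

theorem loc11 {X : Subgroup G} (hX : h ∈ X) (k : c ∉ X) : X ⊓ C1[h ^ 2] = zpowers h ∧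
    ∃ e, e ∣ 10 ∧ Nat.card ↥(X ⊓ N[zpowers (h ^ 2)]) = 22 * e ∧ sv (Nat.card X) 11 (22 * e) ∧ ¬ 121 ∣ Nat.card X := by
  have h1 := c242 F oh oy oc c1 hc cx cy
  have o2 : orderOf (h ^ 2) = 11 := by rw [orderOf_pow, oh]; rfl
  have l1 : zpowers h ≤ X ⊓ C1[h ^ 2] := zpowers_le.2 ⟨hX, mem_cent1.2 (by group)⟩
  obtain ⟨n, hn⟩ := card_dvd_of_le l1
  have d1 := card_dvd_of_le (inf_le_right : X ⊓ C1[h ^ 2] ≤ _)
  have l2 : X ⊓ C1[h ^ 2] < C1[h ^ 2] := lt_of_le_of_ne inf_le_right fun e => k (e.ge (mem_cent1.2 cx)).1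
  have d2 := card_lt_of_lt l2
  rw [Nat.card_zpowers, oh] at hn
  rw [hn, h1] at d1 d2
  obtain rfl : n = 1 := ((Nat.dvd_prime (by norm_num : Nat.Prime 11)).1
    (Nat.dvd_of_mul_dvd_mul_left (by norm_num : 0 < 22) (n := 11) d1)).resolve_right (by omega)
  obtain ⟨e, e0, e1, e2, -, e4⟩ := rel_aut (by norm_num) o2 X
  rw [hn] at e4
  have e5 : e ≤ 10 := Nat.le_of_dvd (by norm_num) (e1.trans e2)
  have s1 : IsPiHallOf {11} (zpowers (h ^ 2)) X := syl_of_syl_norm (by norm_num) (syl_zp (by norm_num)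
    ⟨pow_mem hX 2, le_normalizer (mem_zpowers _)⟩ o2 (by
      rw [e4]; have := e1.trans e2; interval_cases e <;> omega))
  refine ⟨(eq_of_le_of_card_ge l1 (by rw [hn, Nat.card_zpowers, oh])).symm, e, e1.trans e2, e4,
    e4 ▸ sv_syl (by norm_num) s1, fun d => syl_not_dvd (by norm_num) s1 ?_⟩
  rw [← card_mul_relIndex s1.le, Nat.card_zpowers, o2] at d
  exact Nat.dvd_of_mul_dvd_mul_left (by norm_num : 0 < 11) d

theorem pgl_max (ou : orderOf u = 23) (hu : h ∈ N[zpowers u]) (cj : c * h ^ 11 ≠ h ^ 11 * c) (hf : f ∈ N[zpowers h])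
    (tc : ∀ M : Subgroup G, u ∈ M → h ∈ M → c ∈ M → M = ⊤) (tf : ∀ M : Subgroup G, u ∈ M → h ∈ M → f ∈ M → M = ⊤)
    {K : Subgroup G} (hK : Nat.card K = 12144) : IsCoatom K := by
  have n23 : ¬ 23 * 23 ∣ Nat.card G := by rw [F.card]; norm_num
  obtain ⟨u', hu', o'⟩ := exists_mem_orderOf_eq (H := K) (p := 23) (by norm_num) (by rw [hK]; norm_num)
  obtain ⟨a, -, ha⟩ := syl_exists_conj (M := ⊤) (by norm_num) (syl_zp (by norm_num) (mem_top _) o' (by rwa [card_top]))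
    (syl_zp (by norm_num) (mem_top _) ou (by rwa [card_top]))
  rw [← isCoatom_conj_iff (g := a)]
  have uK : u ∈ cj[a] K := conj_mono a (zpowers_le.2 hu') (ha.le (mem_zpowers u))
  rw [← card_conj a] at hK
  generalize cj[a] K = K at uK hK
  have cN := (F.big (23, 22) (by decide) u ou).2
  obtain ⟨n, n1, n2, n3⟩ := sv_zp (by norm_num) n23 uK ou cN
  rw [hK] at n3
  obtain rfl := (show ∀ n ∈ dv 22, sv 12144 23 (23 * n) → n = 22 by decide +kernel) n (mem_dv (by norm_num) n1) n3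
  have NK : N[zpowers u] ≤ K := inf_eq_right.1 (eq_of_le_of_card_ge inf_le_right (by rw [n2, cN]))
  have ne : K ≠ ⊤ := fun e => by rw [e, card_top, F.card] at hK; omega
  obtain ⟨-, e, e1, e2, e3, -⟩ := loc11 F oh oy oc c1 hc cx cy (NK hu) fun k => ne (tc K uK (NK hu) k)
  rw [hK] at e3
  obtain rfl := (show ∀ n ∈ dv 10, sv 12144 11 (22 * n) → n = 2 by decide +kernel) e (mem_dv (by norm_num) e1) e3
  refine ⟨ne, fun M hM => by_contra fun k => ?_⟩
  have hM1 := hM.le (NK hu)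
  obtain ⟨m1, e, m2, m3, m4, m5⟩ := loc11 F oh oy oc c1 hc cx cy hM1 fun k' => k (tc M (hM.le uK) hM1 k')
  have m6 := card_dvd_of_le (inf_le_inf_right N[zpowers (h ^ 2)] hM.le)
  rw [e2, m3] at m6
  have m7 : e = 2 ∨ e = 10 := by
    have := Nat.le_of_dvd (by norm_num) m2
    interval_cases e <;> omega
  rcases m7 with rfl | rfl
  · obtain ⟨i, hi, b, hb, d, hd, eM⟩ := exists_fac (F.card ▸ card_subgroup_dvd_card M)
    have s1 := sv_syl (p := 23) (by norm_num) (syl_zp (by norm_num) (hM.le uK) ou fun k =>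
      n23 (k.trans (card_subgroup_dvd_card M)))
    rw [inf_eq_right.2 (NK.trans hM.le), cN] at s1
    have s2 := card_dvd_of_le hM.le
    have s3 := F.okB M
    have s4 := card_lt_of_lt hM
    rw [hK] at s2 s4
    rw [eM] at s1 s2 s3 s4 m4 m5
    rcases sieveP i hi b hb d hd (Nat.mod_eq_zero_of_dvd s2) s3 s1 m4 with k | k
    · exact m5 (Nat.dvd_of_mod_eq_zero k)
    · omega
  · have w1 : c ∉ N[zpowers h] := fun k => by
      have : Fact (Nat.Prime 2) := ⟨Nat.prime_two⟩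
      obtain ⟨i, hi⟩ := conj_mem_of_mem_norm k (pow_mem (mem_zpowers h) 11)
      have o : orderOf (h ^ 11) = 2 := by rw [orderOf_pow, oh]; rfl
      have o1 : orderOf (h ^ i) = 2 := by rw [show h ^ i = _ from hi, orderOf_conj, o]
      have d : ((22 : ℕ) : ℤ) ∣ i * 2 := by
        rw [← oh, orderOf_dvd_iff_zpow_eq_one, zpow_mul, zpow_ofNat, ← o1, pow_orderOf_eq_one]
      obtain ⟨l, rfl⟩ : 11 ∣ i := by omega
      have t : (h ^ 11) ^ l = c * h ^ 11 * c⁻¹ := by rw [← hi, ← zpow_natCast, ← zpow_mul]; rfl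
      have := (mem_zpowers_of_sq (by rw [← pow_two, ← o, pow_orderOf_eq_one])).1 (t ▸ zpow_mem_zpowers (h ^ 11) l)
      rcases this with t1 | t1
      · rw [conj_eq_one_iff] at t1
        rw [t1, orderOf_one] at o; omega
      · exact cj (by rw [← t1, inv_mul_cancel_right, t1])
    obtain ⟨-, e, w2, w3, -⟩ := loc11 F oh oy oc c1 hc cx cy (le_normalizer (mem_zpowers h)) w1
    have w4 : M ⊓ N[zpowers (h ^ 2)] ≤ N[zpowers h] ⊓ N[zpowers (h ^ 2)] := le_inf (by
      rw [← m1, ← cent_zpowers]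
      exact le_norm_inf (le_norm_self inf_le_left) (le_norm_cent inf_le_right)) inf_le_right
    have w5 := eq_of_le_of_card_ge w4 (by have := Nat.le_of_dvd (by norm_num) w2; omega)
    refine k (tf M (hM.le uK) hM1 (w5.ge ⟨hf, mem_normalizer_of_conj_le ?_⟩).1)
    obtain ⟨i, hi⟩ := conj_mem_of_mem_norm hf (mem_zpowers h)
    rw [conj_zpowers, ← conj_pow, ← show h ^ i = _ from hi, zpowers_le]
    exact ⟨i, by simp only [← zpow_natCast, ← zpow_mul, mul_comm]⟩

end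

end Cfsg.Agent.J4U
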