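import Cfsg.Agent.J4U.U
import Cfsg.Agent.J4M.C
import Cfsg.Agent.J4V.SU

/-!
# Codes for `SU₃(3)`, recognition by a graph, and covers of sets of involutions
-/

set_option autoImplicit false
set_option maxRecDepth 100000

namespace Cfsg.Agent.J4U

open Cfsg.Agent.J4 hiding mm pk
open Cfsg.Agent.J4M Cfsg.Agent.J4V Cfsg.Agent.M24 Cfsg.Agent.TT Cfsg.Agent.GT Subgroup Matrix

instance factF9 : Fact (∀ r : ZMod 3, r ^ 2 ≠ -1 + 0 * r) := ⟨by decide⟩
abbrev F9 : Type := QuadraticAlgebra (ZMod 3) (-1) 0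
instance finF9 : Fintype F9 := Fintype.ofEquiv _ (QuadraticAlgebra.equivProd (-1 : ZMod 3) 0).symm
theorem card_F9 : Fintype.card F9 = 9 := by rw [Fintype.ofEquiv_card]; simp

def re9 (a b i j : ℕ) : ℕ := (dg a (6 * i) * dg b (2 * j) + 2 * (dg a (6 * i + 1) * dg b (2 * j + 1)) +
  (dg a (6 * i + 2) * dg b (6 + 2 * j) + 2 * (dg a (6 * i + 3) * dg b (6 + 2 * j + 1))) +
  (dg a (6 * i + 4) * dg b (12 + 2 * j) + 2 * (dg a (6 * i + 5) * dg b (12 + 2 * j + 1)))) % 3
def im9 (a b i j : ℕ) : ℕ := (dg a (6 * i) * dg b (2 * j + 1) + dg a (6 * i + 1) * dg b (2 * j) +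
  (dg a (6 * i + 2) * dg b (6 + 2 * j + 1) + dg a (6 * i + 3) * dg b (6 + 2 * j)) +
  (dg a (6 * i + 4) * dg b (12 + 2 * j + 1) + dg a (6 * i + 5) * dg b (12 + 2 * j))) % 3
def mu9 (a b : ℕ) : ℕ := pk [re9 a b 0 0, im9 a b 0 0, re9 a b 0 1, im9 a b 0 1, re9 a b 0 2, im9 a b 0 2,
  re9 a b 1 0, im9 a b 1 0, re9 a b 1 1, im9 a b 1 1, re9 a b 1 2, im9 a b 1 2,
  re9 a b 2 0, im9 a b 2 0, re9 a b 2 1, im9 a b 2 1, re9 a b 2 2, im9 a b 2 2]
def dec9 (a : ℕ) : Matrix (Fin 3) (Fin 3) F9 := of fun i j => ⟨dg a (6 * i + 2 * j), dg a (6 * i + 2 * j + 1)⟩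
def enc9 (A : Matrix (Fin 3) (Fin 3) F9) : ℕ := pk [(A 0 0).re.val, (A 0 0).im.val, (A 0 1).re.val, (A 0 1).im.val,
  (A 0 2).re.val, (A 0 2).im.val, (A 1 0).re.val, (A 1 0).im.val, (A 1 1).re.val, (A 1 1).im.val, (A 1 2).re.val,
  (A 1 2).im.val, (A 2 0).re.val, (A 2 0).im.val, (A 2 1).re.val, (A 2 1).im.val, (A 2 2).re.val, (A 2 2).im.val]

theorem dec9_mul (a b : ℕ) : dec9 (mu9 a b) = dec9 a * dec9 b := by
  have h : ∀ i, dg (mu9 a b) i = _ := dg_pk _ (by
    have : ∀ n, n % 3 < 16 := fun n => by omega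
    simp [re9, im9, this])
  have h3 : ((2 : ℕ) : ZMod 3) = -1 := by decide
  have h1 : ∀ i j : ℕ, (re9 a b i j : ZMod 3) = _ := fun i j => by
    simp only [re9, ZMod.natCast_mod, Nat.cast_add, Nat.cast_mul, h3]; rfl
  have h2 : ∀ i j : ℕ, (im9 a b i j : ZMod 3) = _ := fun i j => by
    simp only [im9, ZMod.natCast_mod, Nat.cast_add, Nat.cast_mul]; rfl
  ext i j <;> fin_cases i <;> fin_cases j <;>
    simp [dec9, h, mul_apply, Fin.sum_univ_three, h1, h2]

theorem val16 : ∀ x : ZMod 3, x.val < 16 := by decide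

theorem dec_enc9 (A : Matrix (Fin 3) (Fin 3) F9) : dec9 (enc9 A) = A := by
  have h : ∀ i, dg (enc9 A) i = _ := dg_pk _ (by simp [val16])
  ext i j <;> fin_cases i <;> fin_cases j <;> simp [dec9, h]

theorem enc_mu9 (a b : ℕ) : enc9 (dec9 (mu9 a b)) = mu9 a b := by
  have h : ∀ i, dg (mu9 a b) i = _ := dg_pk _ (by
    have : ∀ n, n % 3 < 16 := fun n => by omega
    simp [re9, im9, this])
  have h1 : ∀ i j, re9 a b i j % 3 = re9 a b i j := fun _ _ => Nat.mod_mod _ _
  have h2 : ∀ i j, im9 a b i j % 3 = im9 a b i j := fun _ _ => Nat.mod_mod _ _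
  conv_rhs => rw [mu9]
  simp [enc9, dec9, h, ZMod.val_natCast, h1, h2]

theorem pk_lt (l : List ℕ) (h : ∀ x ∈ l, x < 16) : pk l < 16 ^ l.length := by
  induction l with
  | nil => simp [pk]
  | cons x l ih =>
    have := ih fun y hy => h y (by simp [hy])
    have := h x (by simp)
    rw [pk, List.length_cons, pow_succ]; omega

abbrev SU9 : Type := Cfsg.SU 3 F9 3

theorem frob9 : ∀ x : F9, star x = x ^ 3 := by decide +kernel
theorem isFrob9 : Cl.Uni.IsFrob F9 3 := ⟨inferInstance, by rw [Nat.card_eq_fintype_card, card_F9]; norm_num, frob9⟩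

/-- The code of a unitary matrix. -/
def cS (g : SU9) : ℕ := enc9 g.1.1

theorem gcS : GC cS mu9 (cinv cS) on3 :=
  gc_of (fun g h e => Subtype.ext (Subtype.ext (by rw [← dec_enc9 g.1.1, ← dec_enc9 h.1.1]; exact congrArg dec9 e)))
    (fun g h => by rw [← enc_mu9, dec9_mul, cS, cS, cS, dec_enc9, dec_enc9]; rfl)
    (show enc9 1 = on3 by decide +kernel)

theorem cS_lt (g : SU9) : cS g < 2 ^ 120 := (pk_lt _ (by simp [val16])).trans (by norm_num)

theorem exists_cS {a : ℕ} (h : enc9 (dec9 a) = a ∧ (dec9 a).det = 1 ∧ (dec9 a)ᴴ * dec9 a = 1) : ∃ g, cS g = a := by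
  refine ⟨⟨⟨dec9 a, h.2.1⟩, fun u v => ?_⟩, h.1⟩
  have k : ∀ u v : Fin 3 → F9, Cfsg.hermForm 3 F9 3 u v = star v ⬝ᵥ u := fun u v => by
    simp [Cfsg.hermForm, dotProduct, frob9, mul_comm]
  change Cfsg.hermForm 3 F9 3 (dec9 a *ᵥ u) (dec9 a *ᵥ v) = _
  rw [k, k, star_mulVec, dotProduct_mulVec, vecMul_vecMul, h.2.2, vecMul_one]

theorem card_su9 : Nat.card SU9 = 6048 := by
  have := isFrob9.card_su (n := 3) (by norm_num)
  rw [show 3 ^ (3 * (3 - 1) / 2) * ∏ i ∈ Finset.range 3,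
    (if Even i then 3 ^ (i + 1) + 1 else 3 ^ (i + 1) - 1) = 24192 by decide +kernel] at this
  change 4 * Nat.card SU9 = _ at this
  omega

noncomputable def psu9 : Cfsg.PSU 3 F9 3 ≃* SU9 :=
  Cl.quotCenterEquivOfBot (card_eq_one.1 (isFrob9.card_center_su (by norm_num)))

instance simple_su9 : IsSimpleGroup SU9 :=
  have := isFrob9.simple_psu (n := 3) (by norm_num) (by norm_num)
  psu9.symm.isSimpleGroup

def sL : List ℕ := [0x021202220011011201, 0x101012022202110101, 0x001000010000000010, 0x020000000100000002]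

theorem valid_sL : Valid cS sL := by
  simp only [Valid, sL, List.mem_cons, List.not_mem_nil, or_false, forall_eq_or_imp, forall_eq]
  refine ⟨?_, ?_, ?_, ?_⟩ <;> exact exists_cS (by rw [det_fin_three]; decide +kernel)

theorem sL_ord : ordW mu9 on3 sL 0x33114131 7 = true ∧ sqChk mu9 on3 sL 0x221211 1 2 3 1 = true ∧
    sqChk mu9 on3 sL 3 4 7 2 5 = true ∧ mu9 (lget sL 0 2) (lget sL 0 3) ≠ mu9 (lget sL 0 3) (lget sL 0 2) := by
  decide +kernel

theorem gen_sL : gen cS sL = ⊤ := by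
  by_contra n
  obtain ⟨h1, h2, h3, h4⟩ := sL_ord
  obtain ⟨m, hm⟩ := Nat.Coprime.mul_dvd_of_dvd_of_dvd (by norm_num) (ordW_sound gcS valid_sL (by norm_num) h1)
    (Nat.Coprime.mul_dvd_of_dvd_of_dvd (by norm_num) (sqChk_sound gcS valid_sL (by norm_num) h2)
      (sqChk_sound gcS valid_sL (by norm_num) h3))
  have := Cl.two_mul_card_dvd_factorial_index (fun k => h4 (by
    obtain ⟨a, ha⟩ := valid_sL (lget sL 0 2) (by decide +kernel)
    obtain ⟨b, hb⟩ := valid_sL (lget sL 0 3) (by decide +kernel)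
    rw [← ha, ← hb, ← gcS.code_mul, ← gcS.code_mul, k.is_comm.comm])) n
  have h5 := (gen cS sL).card_mul_index
  rw [card_su9] at this h5
  have h6 : 7 ≤ (gen cS sL).index := ((by norm_num : Nat.Prime 7).dvd_factorial).1 (Nat.dvd_trans (by norm_num) this)
  have h7 : m ≠ 0 := by rintro rfl; have := Nat.card_pos (α := gen cS sL); omega
  rw [hm] at h5
  nlinarith [Nat.pos_of_ne_zero h7]

theorem gen_four {X : Type*} [Group X] {f : X → ℕ} (hf : Function.Injective f) (p q r s : X) :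
    gen f [f p, f q, f r, f s] = Subgroup.closure {p, q, r, s} :=
  congrArg Subgroup.closure (Set.ext fun g => by simp [hf.eq_iff])

/-- Codes of pairs. -/
noncomputable def pc9 {G : Type*} (code : G → ℕ) (p : SU9 × G) : ℕ := cS p.1 + 2 ^ 120 * code p.2
noncomputable def mul9 (a b : ℕ) : ℕ :=
  force (Nat.land a (nat_lit 0xffffffffffffffffffffffffffffff)) fun a1 =>
    force (Nat.land b (nat_lit 0xffffffffffffffffffffffffffffff)) fun b1 =>
      force (Nat.shiftRight a (nat_lit 120)) fun a2 => force (Nat.shiftRight b (nat_lit 120)) fun b2 =>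
        force (mu9 a1 b1) fun c1 => force (mm a2 b2) fun c2 => mk2 c1 c2

/-- Conjugate of `a` along a word. -/
noncomputable def cj2 (S T : List ℕ) (a w : ℕ) : ℕ :=
  Nat.rec (motive := fun _ => ℕ → ℕ → ℕ) (fun a _ => a)
    (fun _ ih a w => bif' (Nat.beq w (nat_lit 0)) a
      (force (Nat.sub (Nat.land w (nat_lit 15)) (nat_lit 1)) fun i =>
        force (mm (mm (lget S mone i) a) (lget T mone i)) fun a' => force (Nat.shiftRight w (nat_lit 4)) (ih a')))
    (nat_lit 16) a w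

/-- Check of one involution: residue, word, representative, certificate. -/
noncomputable def invChk (S T J A : List ℕ) (a g h e : ℕ) : Bool :=
  force (force (lget J mone (Nat.land (Nat.shiftRight e (nat_lit 128)) (nat_lit 255))) fun j =>
      force (Nat.land (Nat.shiftRight e (nat_lit 64)) (nat_lit 0xffffffffffffffff)) (cj2 S T j)) fun r =>
    band (Nat.beq (Nat.mod r (nat_lit 0x1fffffffffffffff)) (Nat.land e (nat_lit 0xffffffffffffffff)))
      (bor (force (mm r a) fun x => !Nat.beq (mm (mm x x) x) mone) (bor (Nat.beq r mone)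
        (force (mm (mm g r) h) fun q => force (Nat.shiftRight e (nat_lit 136)) (bigQ 29 3 43 1 (q :: A)))))

/-- Strictly increasing. -/
noncomputable def incr (l : List ℕ) : ℕ → Bool :=
  List.rec (motive := fun _ => ℕ → Bool) (fun _ => true) (fun x _ ih p => band (Nat.blt p x) (ih x)) l

theorem incr_sound {l : List ℕ} {p : ℕ} (h : incr l p = true) : (∀ x ∈ l, p < x) ∧ l.Nodup := by
  induction l generalizing p with
  | nil => simp
  | cons x l ih =>
    have e : incr (x :: l) p = band (Nat.blt p x) (incr l x) := rfl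
    rw [e, band_eq, Bool.and_eq_true, Nat.blt_eq] at h
    obtain ⟨h1, h2⟩ := ih h.2
    exact ⟨fun y hy => (List.mem_cons.1 hy).elim (fun e => e ▸ h.1) fun k => h.1.trans (h1 y k),
      List.nodup_cons.2 ⟨fun k => lt_irrefl _ (h1 x k), h2⟩⟩

theorem count_set {α : Type*} [Finite α] {I : Set α} (f : α → ℕ) {l : List ℕ} (nd : l.Nodup) {P : α → Prop}
    (h : ∀ a ∈ l, ∃ x ∈ I, f x = a ∧ P x) (hc : I.ncard ≤ l.length) : ∀ x ∈ I, P x := by
  have h1 : (l.toFinset : Set ℕ) ⊆ f '' {x ∈ I | P x} := fun a ha =>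
    let ⟨x, h1, h2, h3⟩ := h a (by simpa using ha); ⟨x, ⟨h1, h3⟩, h2⟩
  have h2 := (Set.ncard_le_ncard h1).trans (Set.ncard_image_le (Set.toFinite _))
  rw [Set.ncard_coe_finset, List.toFinset_card_of_nodup nd] at h2
  have := Set.eq_of_subset_of_ncard_le (Set.sep_subset I P) (hc.trans h2)
  exact fun x hx => (this.ge hx).2

theorem sieve2943 : ∀ a < 22, ∀ b ∈ l64, ∀ c ∈ l32, 2 ^ a * (b * c) % 6048 = 0 → 2 ^ a * (b * c) % (29 * 43) = 0 →
    okB (2 ^ a * (b * c)) → (2 ^ a * (b * c) % 1331 = 0 → ∃ d ∈ dv 240, sv (2 ^ a * (b * c)) 1331 (1331 * d)) →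
    2 ^ a * (b * c) * 2 = 86775571046077562880 ∨ 2 ^ a * (b * c) = 86775571046077562880 := by decide +kernel

theorem JF.top2 {G : Type*} [Group G] [Finite G] [IsSimpleGroup G] (F : JF G) {K : Subgroup G}
    (h : 6048 ∣ Nat.card K) (k : 29 ∣ Nat.card K ∧ 43 ∣ Nat.card K) : K = ⊤ := by
  obtain ⟨a, ha, b, hb, c, hc, e⟩ := exists_fac (F.card ▸ card_subgroup_dvd_card K)
  have h1 := F.okB K
  have h2 := F.s11 K
  have h3 := Nat.mod_eq_zero_of_dvd (Nat.Coprime.mul_dvd_of_dvd_of_dvd (by norm_num) k.1 k.2)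
  have h4 := Nat.mod_eq_zero_of_dvd h
  refine top_of_card F ?_
  rw [e] at h1 h2 h3 h4 ⊢
  exact sieve2943 a ha b hb c hc h4 h3 h1 h2

section
variable {G : Type*} [Group G] {code : G → ℕ} {inv : ℕ → ℕ} (C : GC code mm inv mone)
include C

theorem gc9 : GC (pc9 code) mul9 (cinv (pc9 code)) (mk2 on3 mone) := by
  have a1 : ∀ p : SU9 × G, Nat.land (pc9 code p) (nat_lit 0xffffffffffffffffffffffffffffff) = cS p.1 := fun p => by
    show pc9 code p &&& (2 ^ 120 - 1) = _
    rw [pc9, add_comm, and_add (cS_lt _)]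
  have a2 : ∀ p : SU9 × G, Nat.shiftRight (pc9 code p) (nat_lit 120) = code p.2 := fun p => by
    show pc9 code p >>> 120 = _
    rw [pc9, add_comm, shr_add (cS_lt _)]
  refine gc_of (fun p q h => Prod.ext (gcS.inj ?_) (C.inj ?_)) (fun p q => ?_) ?_
  · rw [← a1, h, a1]
  · rw [← a2, h, a2]
  · simp only [mul9, force_eq, a1, a2, mk2_eq, ← gcS.code_mul, ← C.code_mul]; rfl
  · rw [mk2_eq, ← gcS.code_one, ← C.code_one]; rfl

theorem cj2_code {S T : List ℕ} (hS : Valid code S) (hT : Valid code T)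
    (h : (nall 15 fun i => Nat.beq (mm (lget S mone i) (lget T mone i)) mone) = true) (a : G)
    (w : ℕ) : ∃ ρ ∈ gen code S, cj2 S T (code a) w = code (ρ * a * ρ⁻¹) := by
  unfold cj2
  generalize (nat_lit 16 : ℕ) = n
  induction n generalizing w a with
  | zero => exact ⟨1, one_mem _, by simp⟩
  | succ n ih =>
    simp only [bif'_eq, force_eq] at ih ⊢
    split_ifs
    · exact ⟨1, one_mem _, by simp⟩
    obtain ⟨s, hs, e⟩ := C.lget_mem hS (Nat.sub (Nat.land w (nat_lit 15)) (nat_lit 1))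
    obtain ⟨t, -, e'⟩ := C.lget_mem hT (Nat.sub (Nat.land w (nat_lit 15)) (nat_lit 1))
    have := (nall_iff _ _).1 h (Nat.sub (Nat.land w (nat_lit 15)) (nat_lit 1))
      (by have : w &&& 15 ≤ 15 := Nat.and_le_right; show (w &&& 15) - 1 < 15; omega)
    rw [← e, ← e', ← C.code_mul, C.eq_one_iff] at this
    rw [← e, ← e', ← C.code_mul, ← C.code_mul, ← inv_eq_of_mul_eq_one_right this]
    obtain ⟨ρ, h1, h2⟩ := ih (s * a * s⁻¹) (Nat.shiftRight w (nat_lit 4))
    exact ⟨ρ * s, mul_mem h1 hs, by rw [h2, _root_.mul_inv_rev]; simp only [mul_assoc]⟩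

theorem cen_sound {x : G} {S : List ℕ} (h : (lall S fun s => Nat.beq (mm s (code x)) (mm (code x) s)) = true) :
    gen code S ≤ C1[x] := gen_le fun g hg => by
  have := Nat.eq_of_beq_eq_true ((lall_iff _ _).1 h _ hg)
  rw [← C.code_mul, ← C.code_mul] at this
  exact mem_cent1.2 (C.inj this)

variable [Finite G]

theorem card_ge {S ws : List ℕ} (hS : Valid code S) (h : mapK (pw mm mone S) ws ndp = true) :
    ws.length ≤ Nat.card (gen code S) := by
  rw [mapK_eq] at h
  have := (count_cover (K := ⊥) (N := gen code S) bot_le code (fun k hk g => by rw [mem_bot.1 hk, one_mul])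
    (ndp_sound h) (P := fun _ => True) fun a ha => let ⟨g, h1, h2⟩ := in_map C hS ws a ha; ⟨g, h1, h2, trivial⟩).1
  simpa using this

theorem nrm2_sound {a b s : G} {u v : ℕ} (h1 : mm (code s) (code a) = mm (pw mm mone [code a, code b] u) (code s))
    (h2 : mm (code s) (code b) = mm (pw mm mone [code a, code b] v) (code s)) : s ∈ N[gen code [code a, code b]] := by
  have hv : Valid code [code a, code b] := by simp [Valid]
  obtain ⟨x, hx, e⟩ := in_pw C hv u
  obtain ⟨y, hy, e'⟩ := in_pw C hv v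
  rw [← e, ← C.code_mul, ← C.code_mul, C.inj.eq_iff] at h1
  rw [← e', ← C.code_mul, ← C.code_mul, C.inj.eq_iff] at h2
  refine mem_normalizer_of_conj_le (conj_le_iff.2 (gen_le fun g hg => mem_conj.2 ?_))
  simp only [List.mem_cons, List.not_mem_nil, or_false, C.inj.eq_iff] at hg
  rcases hg with rfl | rfl
  · rwa [inv_inv, h1, mul_inv_cancel_right]
  · rwa [inv_inv, h2, mul_inv_cancel_right]

theorem iso9 {a b c d : G} {Ls : List Lv} (hs : sz Ls ≤ 6048) (n : a ≠ 1)
    (h : mapK (fun i => mk2 (lget sL 0 i) (lget [code a, code b, code c, code d] 0 i)) [0, 1, 2, 3]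
      (fun S => force (mk2 on3 mone) fun o => chk mul9 o Ls S fun _ => true) = true) :
    Nonempty (gen code [code a, code b, code c, code d] ≃* SU9) := by
  obtain ⟨a', ea⟩ := valid_sL (lget sL 0 0) (by decide +kernel)
  obtain ⟨b', eb⟩ := valid_sL (lget sL 0 1) (by decide +kernel)
  obtain ⟨c', ec⟩ := valid_sL (lget sL 0 2) (by decide +kernel)
  obtain ⟨d', ed⟩ := valid_sL (lget sL 0 3) (by decide +kernel)
  have e0 : sL = [cS a', cS b', cS c', cS d'] := by rw [ea, eb, ec, ed]; rfl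
  rw [mapK_eq, force_eq] at h
  have e1 : [0, 1, 2, 3].map (fun i => mk2 (lget sL 0 i) (lget [code a, code b, code c, code d] 0 i)) =
      [pc9 code (a', a), pc9 code (b', b), pc9 code (c', c), pc9 code (d', d)] := by
    rw [e0]; simp only [List.map_cons, List.map_nil, mk2_eq]; rfl
  rw [e1] at h
  have hc := (chk_card (gc9 C) (by
    simp only [Valid, List.mem_cons, List.not_mem_nil, or_false, forall_eq_or_imp, forall_eq]
    exact ⟨⟨_, rfl⟩, ⟨_, rfl⟩, ⟨_, rfl⟩, ⟨_, rfl⟩⟩) h).trans hs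
  rw [gen_four (gc9 C).inj] at hc
  set L := closure {(a', a), (b', b), (c', c), (d', d)}
  have e2 : L.map (MonoidHom.snd _ _) = gen code [code a, code b, code c, code d] := by
    simp [L, MonoidHom.map_closure, Set.image_insert_eq, gen_four C.inj]
  have e3 : L.map (MonoidHom.fst _ _) = ⊤ := by
    rw [← gen_sL, e0, gen_four gcS.inj]; simp [L, MonoidHom.map_closure, Set.image_insert_eq]
  have s2 : Function.Surjective ((MonoidHom.fst SU9 G).comp L.subtype) := by
    rwa [← MonoidHom.range_eq_top, MonoidHom.range_comp, range_subtype]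
  let e := MulEquiv.ofBijective _ (s2.bijective_of_nat_card_le (card_su9 ▸ hc))
  have : IsSimpleGroup L := e.isSimpleGroup
  have i1 : Function.Injective ((MonoidHom.snd SU9 G).comp L.subtype) :=
    (MonoidHom.ker_eq_bot_iff _).1 ((MonoidHom.normal_ker _).eq_bot_or_eq_top.resolve_right fun k =>
      n (k.ge (mem_top (⟨(a', a), subset_closure (by simp)⟩ : L))))
  exact ⟨((MulEquiv.subgroupCongr (by rw [MonoidHom.range_comp, range_subtype, e2])).symm.trans
    (MonoidHom.ofInjective i1).symm).trans e⟩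

theorem inv_cover {S T J A E : List ℕ} (hS : Valid code S) (hT : Valid code T) (hA : Valid code A) {y g : G}
    {B : Subgroup G} (h0 : gen code S ≤ B) (hB : B ≤ N[zpowers y]) (hBA : B ≤ gen code A)
    (h1 : (nall 15 fun i => Nat.beq (mm (lget S mone i) (lget T mone i)) mone) = true)
    (hJ : ∀ k ∈ J, ∃ j, code j = k ∧ j * j = 1 ∧ j * y = y * j ∧ (j ∈ B ∨ Big code 29 43 A j))
    (h2 : mapK (fun e => Nat.land e (nat_lit 0xffffffffffffffff)) E (fun l => incr l 0) = true)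
    (h3 : lall E (invChk S T J A (code (g⁻¹ * y * g)) (code g) (code g⁻¹)) = true)
    (hc : {j : G | j * j = 1 ∧ j * y = y * j}.ncard ≤ E.length) : ∀ j : G, j * j = 1 → j * y = y * j →
      (j ∈ B ∨ Big code 29 43 A j) ∧ ((j * (g⁻¹ * y * g)) ^ 3 = 1 → j = 1 ∨ Big code 29 43 A (g * j * g⁻¹)) := by
  rw [mapK_eq] at h2
  intro j j1 j2
  refine count_set (I := {j : G | j * j = 1 ∧ j * y = y * j}) (fun j => Nat.mod (code j) (nat_lit 0x1fffffffffffffff)) (incr_sound h2).2 (P := fun j =>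
    (j ∈ B ∨ Big code 29 43 A j) ∧ ((j * (g⁻¹ * y * g)) ^ 3 = 1 → j = 1 ∨ Big code 29 43 A (g * j * g⁻¹)))
    (fun x hx => ?_) (by rwa [List.length_map]) j ⟨j1, j2⟩
  obtain ⟨e, he, rfl⟩ := List.mem_map.1 hx
  have := (lall_iff _ _).1 h3 e he
  obtain ⟨k, ek, k1, k2, k3⟩ : ∃ k, code k = lget J mone (Nat.land (Nat.shiftRight e (nat_lit 128)) (nat_lit 255)) ∧
      k * k = 1 ∧ k * y = y * k ∧ (k ∈ B ∨ Big code 29 43 A k) :=
    (M24.lget_mem J mone _).elim (hJ _) fun e => ⟨1, by rw [e, C.code_one], by simp, by simp, .inl (one_mem _)⟩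
  obtain ⟨ρ, r1, r2⟩ := cj2_code C hS hT h1 k (Nat.land (Nat.shiftRight e (nat_lit 64)) (nat_lit 0xffffffffffffffff))
  simp only [invChk, force_eq, ← ek, r2, band_eq, bor_eq, Bool.and_eq_true, Bool.or_eq_true, ← C.code_mul,
    C.eq_one_iff, Bool.not_eq_true', Bool.eq_false_iff, ne_eq] at this
  refine ⟨ρ * k * ρ⁻¹, ⟨by rw [conj_mul, k1, mul_one, mul_inv_cancel], ?_⟩, Nat.eq_of_beq_eq_true this.1,
    k3.imp (fun h => mul_mem (mul_mem (h0 r1) h) (inv_mem (h0 r1))) fun h M m1 m2 => h M m1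
      ((mul_mem_cancel_left (m1 (hBA (h0 r1)))).1 ((mul_mem_cancel_right (inv_mem (m1 (hBA (h0 r1))))).1 m2)),
    fun h => ?_⟩
  · obtain ⟨i, hi⟩ := conj_mem_of_mem_norm (inv_mem (hB (h0 r1))) (mem_zpowers y)
    have := (Commute.zpow_right (k2 : Commute k y) i).eq
    simp only [hi] at this
    calc _ = ρ * (k * (ρ⁻¹ * y * ρ⁻¹⁻¹)) * ρ⁻¹ := by group
      _ = _ := by rw [this]; group
  · exact (this.2.resolve_left fun k => k (by rw [← h, pow_succ, pow_two])).imp_right
      (bigQ_sound C hA (by norm_num) (by norm_num))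

end

end Cfsg.Agent.J4U
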