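import Cfsg.Agent.J4U.P

/-!
# Groups of type `J₄`: a subgroup of order `6048` is maximal (theory)
-/

set_option autoImplicit false
set_option linter.unusedSectionVars false

namespace Cfsg.Agent.J4U

open Cfsg.Agent.J4 Cfsg.Agent.M24 Cfsg.Agent.TT Cfsg.Agent.GT Subgroup MulAction
open scoped Pointwise

/-- Relative version of `sv_ti`. -/
theorem sv_ti' {G : Type*} [Group G] [Finite G] {p : ℕ} {K P : Subgroup G} (hp : p.Prime) (h : IsPiHallOf {p} P K)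
    (h1 : 1 < Nat.card P) (ti : ∀ g ∈ K, ∀ u ∈ P, u ∈ cj[g] P → u ≠ 1 → g ∈ N[P]) :
    sv (Nat.card K) (Nat.card P) (Nat.card ↥(K ⊓ N[P])) := by
  have := sv_ti (G := K) (K := ⊤) (P := P.subgroupOf K) hp (syl_mk hp le_top
    ((isPGroup_subgroupOf_iff h.le).2 (syl_isPGroup hp h)) (by rw [relIndex_top_right]; exact syl_not_dvd hp h)) le_top
    (by rwa [card_subgroupOf h.le]) fun g u hu hg n => by
      rw [← subgroupOf_norm h.le]
      have h2 := mem_conj.1 hg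
      exact ti g g.2 u hu (mem_conj.2 h2) fun e => n (Subtype.ext e)
  rwa [card_top, card_subgroupOf h.le, top_inf_eq, ← subgroupOf_norm h.le, card_subgroupOf', inf_comm] at this

/-- The data of the subgroup. -/
structure UD {G : Type*} [Group G] (R B H : Subgroup G) (y0 y1 t s a : G) : Prop where
  RB : R ≤ B
  BH : B ≤ H
  cR : Nat.card R = 27
  cB : Nat.card B = 216
  cH : Nat.card H = 6048
  BN : B ≤ N[R]
  BZ : B ≤ N[zpowers y0]
  y0R : y0 ∈ R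
  o0 : orderOf y0 = 3
  cen : R ≤ C1[y0]
  y1R : y1 ∈ R
  o1 : orderOf y1 = 3
  y1Z : y1 ∉ zpowers y0
  tB : t ∈ B
  tt : t * t = 1
  ty0 : t * y0 = y0 * t
  ty1 : t * y1 * t⁻¹ = y1⁻¹
  cov : ∀ e ∈ R, e ∈ zpowers y0 ∨ ∃ β ∈ B, β * y1 * β⁻¹ = e
  sH : s ∈ H
  os : orderOf s = 7
  aH : a ∈ H
  as : a ∈ N[zpowers s]
  ns : a ∉ C1[s]

/-- What the certificates give for a proper overgroup. -/
structure UM {G : Type*} [Group G] (R B H : Subgroup G) (y0 y1 s : G) (M : Subgroup G) : Prop where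
  le : H ≤ M
  h7 : M ⊓ C1[s] ≤ zpowers s
  hI : ∀ j ∈ M, j * j = 1 → j * y0 = y0 * j → j ∈ B
  hR : M ⊓ N[R] ≤ B
  hJ : ∀ j ∈ M, j * j = 1 → j * y1 = y1 * j → (j * y0) ^ 3 = 1 → j = 1

set_option synthInstance.maxSize 1000 in
theorem sieveU : ∀ a < 22, ∀ b ∈ l64, ∀ c ∈ l32, 2 ^ a * (b * c) % 6048 = 0 → okB (2 ^ a * (b * c)) →
    sv (2 ^ a * (b * c)) 7 21 → sv (2 ^ a * (b * c)) 27 216 →
    (2 ^ a * (b * c) % 1331 = 0 → ∃ d ∈ dv 240, sv (2 ^ a * (b * c)) 1331 (1331 * d)) →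
    2 ^ a * (b * c) = 6048 ∨ 2 ^ a * (b * c) = 5721408 ∨ 2 ^ a * (b * c) = 6267469824 := by
  decide +kernel

namespace UD

variable {G : Type*} [Group G] [Finite G] {R B H M : Subgroup G} {y0 y1 t s a : G} (D : UD R B H y0 y1 t s a)
include D

theorem cZ : Nat.card (zpowers y0) = 3 := by rw [Nat.card_zpowers, D.o0]
theorem pR : IsPGroup 3 R := IsPGroup.of_card (n := 3) D.cR
theorem c01 : y1 * y0 = y0 * y1 := mem_cent1.1 (D.cen D.y1R)

theorem cE : Nat.card ↥(zpowers y0 ⊔ zpowers y1) = 9 := by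
  rw [card_sup_of_inf_eq_bot (.inr (le_norm_of_cent (by rw [cent_zpowers]; exact zpowers_le.2 (D.cen D.y1R))))
    (by rw [inf_comm]; exact (le_or_inf_eq_bot_of_card_prime (by rw [Nat.card_zpowers, D.o1]; norm_num) _).resolve_left
          fun k => D.y1Z (k (mem_zpowers _))), D.cZ, Nat.card_zpowers, D.o1]

theorem ER : zpowers y0 ⊔ zpowers y1 ≤ R := sup_le (zpowers_le.2 D.y0R) (zpowers_le.2 D.y1R)

theorem E1 : zpowers y0 ⊔ zpowers y1 ≤ C1[y1] :=
  sup_le (zpowers_le.2 (mem_cent1.2 D.c01.symm)) (zpowers_le.2 (self_mem_cent1 _))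

theorem CB : B ⊓ C1[y1] = zpowers y0 ⊔ zpowers y1 := by
  have h1 := ncard_conj_orbit B y1
  have h2 := Set.ncard_le_ncard (show (R : Set G) \ zpowers y0 ⊆ {v : G | ∃ n ∈ B, n * y1 * n⁻¹ = v} from
    fun e he => (D.cov e he.1).resolve_left he.2)
  rw [ncard_sdiff (zpowers_le.2 D.y0R), D.cR, D.cZ] at h2
  rw [D.cB] at h1
  refine (eq_of_le_of_card_ge (le_inf (D.ER.trans D.RB) D.E1) ?_).symm
  rw [D.cE]
  nlinarith

theorem sylB : IsPiHallOf {3} R B := syl_mk (by norm_num) D.RB D.pR fun k => by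
  have := card_mul_relIndex D.RB
  rw [D.cR, D.cB] at this
  omega

theorem cT : 54 ≤ Nat.card ↥(B ⊓ N[zpowers y0 ⊔ zpowers y1] ⊓ C1[y0]) := by
  have h1 : zpowers y0 ⊔ zpowers y1 < R := lt_of_le_of_ne D.ER fun e => by
    have := D.cE; rw [e, D.cR] at this; omega
  have h2 := card_lt_of_lt (lt_inf_norm_of_isPGroup (by norm_num) D.pR h1)
  have h3 := card_dvd_of_le (inf_le_left : R ⊓ N[zpowers y0 ⊔ zpowers y1] ≤ R)
  rw [D.cE] at h2
  rw [D.cR] at h3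
  have h4 : R ⊓ N[zpowers y0 ⊔ zpowers y1] = R := eq_of_le_of_card_ge inf_le_left (by
    rw [D.cR]
    have := Nat.le_of_dvd (by norm_num) h3
    generalize Nat.card ↥(R ⊓ N[zpowers y0 ⊔ zpowers y1]) = n at *
    interval_cases n <;> omega)
  have h5 : R < B ⊓ N[zpowers y0 ⊔ zpowers y1] ⊓ C1[y0] :=
    lt_of_le_of_ne (le_inf (le_inf D.RB (h4.ge.trans inf_le_right)) D.cen) fun e => by
      have k : t ∈ R := e.ge ⟨⟨D.tB, mem_normalizer_of_conj_le (by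
        rw [conj_sup, conj_zpowers, conj_zpowers, D.ty0, D.ty1, mul_inv_cancel_right, zpowers_inv])⟩,
        mem_cent1.2 D.ty0⟩
      have k1 := orderOf_dvd_card_of_mem k
      have k2 : orderOf t ∣ 2 := orderOf_dvd_of_pow_eq_one (by rw [pow_two, D.tt])
      rw [D.cR] at k1
      have k3 := D.ty1
      rw [orderOf_eq_one_iff.1 (Nat.eq_one_of_dvd_coprimes (by norm_num) k1 k2)] at k3
      have := orderOf_eq_one_iff.2 (eq_one_of_inv (by rw [D.o1]; decide) (by simpa using k3.symm))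
      rw [D.o1] at this; omega
  have h6 := card_lt_of_lt h5
  obtain ⟨c, hc⟩ := card_dvd_of_le h5.le
  rw [D.cR] at h6 hc
  omega

variable (U : UM R B H y0 y1 s M)
include U

theorem BM : B ≤ M := D.BH.trans U.le

theorem NZ : M ⊓ N[zpowers y0] ≤ B := fun g hg => U.hR ⟨hg.1, mem_normalizer_of_conj_le (by
  rintro _ ⟨e, he, rfl⟩
  change g * e * g⁻¹ ∈ R
  rcases D.cov e he with k | ⟨β, hβ, rfl⟩
  · exact zpowers_le.2 D.y0R (conj_mem_of_mem_norm hg.2 k)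
  have h1 : g * β ∈ M ⊓ N[zpowers y0] := mul_mem hg ⟨D.BM U hβ, D.BZ hβ⟩
  rw [show g * (β * y1 * β⁻¹) * g⁻¹ = g * β * y1 * (g * β)⁻¹ by group]
  generalize g * β = n at h1
  have h2 : ∀ i ∈ B, i * i = 1 → i ∈ C1[y0] → n * i * n⁻¹ ∈ B := fun i hi e c =>
    U.hI _ (conj_mem_of_mem_norm (le_normalizer h1.1) (D.BM U hi)) (by rw [conj_mul, e]; simp) (mem_cent1.1 (by
      rw [← cent_zpowers] at c ⊢
      exact conj_mem_of_mem_norm (le_norm_cent (zpowers_le.2 h1.2) (mem_zpowers n)) c))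
  have y1B := D.RB D.y1R
  have t0 := mem_cent1.2 D.ty0
  have h3 := mul_mem (h2 (y1 * t * y1⁻¹) (mul_mem (mul_mem y1B D.tB) (inv_mem y1B)) (by rw [conj_mul, D.tt]; simp)
    (mul_mem (mul_mem (D.cen D.y1R) t0) (inv_mem (D.cen D.y1R)))) (h2 t⁻¹ (inv_mem D.tB)
      (by rw [← mul_inv_rev, D.tt, inv_one]) (inv_mem t0))
  rw [conj_mul, show y1 * t * y1⁻¹ * t⁻¹ = y1 * (t * y1 * t⁻¹)⁻¹ by group, D.ty1, inv_inv] at h3
  have h4 : n * y1 * n⁻¹ ∈ B := by
    have := mul_mem h3 h3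
    rwa [conj_mul, show y1 * y1 * (y1 * y1) = y1 * y1 ^ 3 by simp only [pow_succ, pow_zero, one_mul, mul_assoc], ← D.o1, pow_orderOf_eq_one, mul_one] at this
  exact le_syl_of_le_norm (by norm_num) D.sylB (isPGroup_of_card_eq_prime (by rw [Nat.card_zpowers, orderOf_conj, D.o1]))
    (zpowers_le.2 h4) (zpowers_le.2 (D.BN h4)) (mem_zpowers _))⟩

theorem NZ' {g : G} (hg : g ∈ M) (h : g * y0 * g⁻¹ ∈ zpowers y0) : g ∈ B :=
  D.NZ U ⟨hg, mem_normalizer_of_conj_le (by rw [conj_zpowers]; exact zpowers_le.2 h)⟩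

theorem NE : M ⊓ C1[y1] ⊓ N[zpowers y0 ⊔ zpowers y1] ≤ zpowers y0 ⊔ zpowers y1 := fun g hg => by
  by_cases k : g * y0 * g⁻¹ ∈ zpowers y0
  · exact D.CB.le ⟨D.NZ' U hg.1.1 k, hg.1.2⟩
  exfalso
  have cT := D.cT
  have m0 : y0 ∈ zpowers y0 ⊔ zpowers y1 := mem_sup_left (mem_zpowers _)
  obtain ⟨n, hn, e⟩ := conj_of_card (K := B ⊓ N[zpowers y0 ⊔ zpowers y1] ⊓ C1[y0]) (a := y1)
    (S := ((zpowers y0 ⊔ zpowers y1 : Subgroup G) : Set G) \ zpowers y0) (fun n hn =>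
      ⟨conj_mem_of_mem_norm hn.1.2 (mem_sup_right (mem_zpowers _)), fun c => D.y1Z (by
        simpa [mul_assoc] using conj_mem_of_mem_norm (inv_mem (D.BZ hn.1.1)) c)⟩) (by
      have := card_le_of_le ((inf_le_inf_right C1[y1] (inf_le_left.trans inf_le_left :
        B ⊓ N[zpowers y0 ⊔ zpowers y1] ⊓ C1[y0] ≤ B)).trans D.CB.le)
      rw [ncard_sdiff le_sup_left, D.cE, D.cZ]
      rw [D.cE] at this
      omega) _ ⟨conj_mem_of_mem_norm hg.2 m0, k⟩
  have h1 : n⁻¹ * g ∈ M ⊓ N[zpowers y0 ⊔ zpowers y1] := mul_mem (inv_mem ⟨D.BM U hn.1.1, hn.1.2⟩) ⟨hg.1.1, hg.2⟩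
  have h2 : n⁻¹ * g * y0 * (n⁻¹ * g)⁻¹ = y1 := by
    calc _ = n⁻¹ * (g * y0 * g⁻¹) * n := by group
      _ = _ := by rw [← e]; group
  generalize n⁻¹ * g = b at h1 h2
  have h3 : cj[b] (B ⊓ N[zpowers y0 ⊔ zpowers y1] ⊓ C1[y0]) ≤ M ⊓ N[zpowers y0 ⊔ zpowers y1] ⊓ C1[y1] := by
    rw [conj_inf, conj_cent1, h2]
    refine inf_le_inf_right _ ((conj_mono b (inf_le_inf_right _ (D.BM U))).trans (conj_eq_self (le_normalizer h1)).le)
  have h4 := card_le_of_le h3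
  rw [card_conj] at h4
  have h5 := ncard_conj_orbit (M ⊓ N[zpowers y0 ⊔ zpowers y1] ⊓ C1[y1]) y0
  have h6 : M ⊓ N[zpowers y0 ⊔ zpowers y1] ⊓ C1[y1] ⊓ C1[y0] ≤ zpowers y0 ⊔ zpowers y1 := fun c hc =>
    D.CB.le ⟨D.NZ' U hc.1.1.1 (by rw [mem_cent1.1 hc.2, mul_inv_cancel_right]; exact mem_zpowers _), hc.1.2⟩
  have h7 := card_le_of_le h6
  have n1 : y0 ∉ zpowers y1 := fun c => D.y1Z (eq_zpowers_of_card_prime (H := zpowers y1)
    (by rw [Nat.card_zpowers, D.o1]; norm_num) c (fun e => by have := D.o0; rw [e, orderOf_one] at this; omega) ▸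
      mem_zpowers _)
  have h8 := Set.ncard_le_ncard (show {v : G | ∃ n ∈ M ⊓ N[zpowers y0 ⊔ zpowers y1] ⊓ C1[y1], n * y0 * n⁻¹ = v} ⊆
      (((zpowers y0 ⊔ zpowers y1 : Subgroup G) : Set G) \ zpowers y1) \ {y0⁻¹} by
    rintro _ ⟨c, hc, rfl⟩
    refine ⟨⟨conj_mem_of_mem_norm hc.1.2 m0, fun k => n1 ?_⟩, fun k => ?_⟩
    · simpa [mul_assoc] using conj_mem_of_mem_norm (inv_mem (cent_le_norm _ ((cent_zpowers y1).ge hc.2))) k
    · have k : c * y0 * c⁻¹ = y0⁻¹ := k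
      have := D.cen (D.ER (D.CB.le ⟨D.NZ' U hc.1.1 (k ▸ inv_mem (mem_zpowers _)), hc.2⟩))
      rw [mem_cent1.1 this, mul_inv_cancel_right] at k
      have := orderOf_eq_one_iff.2 (eq_one_of_inv (by rw [D.o0]; decide) k.symm)
      rw [D.o0] at this; omega)
  rw [Set.ncard_sdiff_singleton_of_mem (Set.mem_sdiff_of_mem (inv_mem m0) fun k => n1 (inv_mem_iff.1 k)), ncard_sdiff le_sup_right, D.cE,
    Nat.card_zpowers, D.o1] at h8
  rw [D.cE] at h7
  have := Nat.mul_le_mul h7 h8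
  omega

variable (F : JF G)
include F

theorem loc7 {w : G} (hw : w ∈ M) (o : orderOf w = 7) :
    M ⊓ C1[w] ≤ zpowers w ∧ Nat.card ↥(M ⊓ N[zpowers w]) = 21 := by
  have n7 : ¬ 7 * 7 ∣ Nat.card M := fun k => absurd (k.trans (card_subgroup_dvd_card M)) (by rw [F.card]; norm_num)
  obtain ⟨g, hg, e⟩ := syl_exists_conj (by norm_num) (syl_zp (by norm_num) (U.le D.sH) D.os n7)
    (syl_zp (by norm_num) hw o n7)
  rw [← cent_zpowers, e, ← conj_centralizer, ← conj_normalizer, ← conj_eq_self (le_normalizer hg), ← conj_inf, ← conj_inf,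
    card_conj, cent_zpowers]
  refine ⟨conj_mono g U.h7, ?_⟩
  obtain ⟨c, c0, c1, -, c3, c4⟩ := rel_aut (by norm_num) D.os M
  rw [(F.c7 s D.os).1, (F.c7 s D.os).2] at c3
  obtain rfl : c0 = 3 := by omega
  have h1 : M ⊓ C1[s] = zpowers s := le_antisymm U.h7 (zpowers_le.2 ⟨U.le D.sH, self_mem_cent1 s⟩)
  rw [h1, Nat.card_zpowers, D.os] at c4
  rcases (Nat.dvd_prime Nat.prime_three).1 c1 with rfl | rfl
  · have := eq_of_le_of_card_ge (show zpowers s ≤ M ⊓ N[zpowers s] from le_inf (zpowers_le.2 (U.le D.sH)) le_normalizer)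
      (by rw [c4, Nat.card_zpowers, D.os])
    exact absurd (h1.ge (this.ge ⟨U.le D.aH, D.as⟩)).2 D.ns
  · exact c4

theorem CE : M ⊓ C1[y1] ≤ zpowers y0 ⊔ zpowers y1 := by
  have l1 : zpowers y0 ⊔ zpowers y1 ≤ M ⊓ C1[y1] := le_inf (D.ER.trans (D.RB.trans (D.BM U))) D.E1
  have e1 := le_antisymm (D.NE U) (le_inf l1 le_normalizer)
  have pE := D.pR.to_le D.ER
  have S := Burnside_normal_complement Nat.prime_three (syl_of_syl_norm (M := M ⊓ C1[y1]) Nat.prime_three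
    (by rw [e1]; exact syl_self Nat.prime_three pE))
    (by rw [e1, cent_sup, cent_zpowers, cent_zpowers]; exact le_inf (D.ER.trans D.cen) D.E1)
  have p3 := piCoreOf_isPi {3}ᶜ (M ⊓ C1[y1])
  generalize piCoreOf {3}ᶜ (M ⊓ C1[y1]) = O at S p3
  by_cases k : O = ⊥
  · rw [← S.sup_eq, k, bot_sup_eq]
  exfalso
  obtain ⟨q, hq, d⟩ := Nat.exists_prime_and_dvd (fun e => k (card_eq_one.1 e) : Nat.card O ≠ 1)
  have q3 : q ≠ 3 := p3 q hq d
  have m0 : y0 ∈ zpowers y0 ⊔ zpowers y1 := mem_sup_left (mem_zpowers _)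
  obtain ⟨Q, hQ, nQ⟩ := coprime_exists_syl (A := zpowers y0) hq
    (.inr (solvable_of_isPGroup Nat.prime_three (pE.to_le le_sup_left))) (zpowers_le.2 (S.norm (l1 m0)))
    (by rw [D.cZ]; exact ((Nat.Prime.coprime_iff_not_dvd Nat.prime_three).2 fun e => p3 3 Nat.prime_three e rfl).symm)
  have fx : ∀ d ∈ Q, y0 * d = d * y0 → d = 1 := fun d hd e => by
    have := S.left_le (hQ.le hd)
    exact S.inf_eq.le ⟨hQ.le hd, D.CB.le ⟨D.NZ' U this.1 (by rw [← e, mul_inv_cancel_right]; exact mem_zpowers _), this.2⟩⟩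
  have y3 : y0 ^ 3 = 1 := D.o0 ▸ pow_orderOf_eq_one y0
  have pQ := syl_isPGroup hq hQ
  have nb : Q ≠ ⊥ := (syl_ne_bot_iff hq hQ).2 d
  have QM := hQ.le.trans S.left_le
  by_cases k2 : q = 2
  · subst k2
    obtain ⟨j, hj, o⟩ := exists_mem_orderOf_eq Nat.prime_two (prime_dvd_card_of_isPGroup Nat.prime_two
      (pQ.to_le inf_le_left) (center_ne_bot_of_nilpotent (nilpotent_of_isPGroup Nat.prime_two pQ) nb))
    have n0 := zpowers_le.1 nQ
    have h1 : (j * y0) ^ 3 ∈ Q := by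
      rw [show (j * y0) ^ 3 = j * (y0 * j * y0⁻¹) * (y0 * (y0 * j * y0⁻¹) * y0⁻¹) * y0 ^ 3 by
        simp only [pow_succ]; group, y3, mul_one]
      exact mul_mem (mul_mem hj.1 (conj_mem_of_mem_norm n0 hj.1))
        (conj_mem_of_mem_norm n0 (conj_mem_of_mem_norm n0 hj.1))
    have h2 := U.hJ j (QM hj.1).1 (by rw [← pow_two, ← o, pow_orderOf_eq_one]) (mem_cent1.1 (QM hj.1).2)
      (fx _ h1 (mul_left_cancel (a := j) (by
        rw [← mul_assoc, ← pow_succ', ← mul_assoc, ← hj.2 _ h1, mul_assoc, ← pow_succ])))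
    rw [h2, orderOf_one] at o
    omega
  · have : Fact q.Prime := ⟨hq⟩
    obtain ⟨n, hn⟩ := IsPGroup.iff_card.1 pQ
    have h1 := card_modEq_one Nat.prime_three y3 (zpowers_le.1 nQ) fx
    have h2 := (card_dvd_of_le (QM.trans inf_le_right)).trans (F.c3 y1 D.o1)
    rw [show 21799895040 = 2 ^ 21 * (3 ^ 3 * 385) by norm_num, hn] at h2
    have h3 := (((Nat.coprime_primes hq Nat.prime_three).2 q3).pow n 3).dvd_of_dvd_mul_left
      ((((Nat.coprime_primes hq Nat.prime_two).2 k2).pow n 21).dvd_of_dvd_mul_left h2)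
    rw [← hn] at h3
    have h4 : 7 ∣ Nat.card Q := (show ∀ m ∈ dv 385, m % 3 = 1 % 3 → m ≠ 1 → (m % 5 = 0 ∧ m % 11 = 0) ∨ 7 ∣ m by
      decide +kernel) _ (mem_dv (by norm_num) h3) h1 (fun e => nb (card_eq_one.1 e)) |>.resolve_left fun e => by
        rw [hn] at e
        have a1 := (Nat.prime_dvd_prime_iff_eq (by norm_num) hq).1 (Nat.Prime.dvd_of_dvd_pow (p := 5) (by norm_num)
          (Nat.dvd_of_mod_eq_zero e.1))
        have a2 := (Nat.prime_dvd_prime_iff_eq (by norm_num) hq).1 (Nat.Prime.dvd_of_dvd_pow (p := 11) (by norm_num)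
          (Nat.dvd_of_mod_eq_zero e.2))
        omega
    obtain ⟨w, hw, o⟩ := exists_mem_orderOf_eq (by norm_num) h4
    have := orderOf_dvd_of_mem_zpowers ((D.loc7 U F (QM hw).1 o).1
      ⟨(l1 (mem_sup_right (mem_zpowers y1))).1, mem_cent1_comm.1 (QM hw).2⟩)
    rw [D.o1, o] at this
    omega

theorem Ce {e : G} (he : e ∈ R) (k : e ∉ zpowers y0) : M ⊓ C1[e] ≤ R ∧ Nat.card ↥(M ⊓ C1[e]) ≤ 9 := by
  obtain ⟨β, hβ, rfl⟩ := (D.cov e he).resolve_left k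
  rw [← conj_cent1, ← conj_eq_self (le_normalizer (D.BM U hβ)), ← conj_inf, card_conj, ← D.cE]
  exact ⟨(conj_mono β ((D.CE U F).trans D.ER)).trans (conj_eq_self (D.BN hβ)).le, card_le_of_le (D.CE U F)⟩

theorem cardc {g : G} (hg : g ∈ M) (e : G) : Nat.card ↥(M ⊓ C1[g * e * g⁻¹]) = Nat.card ↥(M ⊓ C1[e]) := by
  conv_lhs => rw [← conj_cent1, ← conj_eq_self (le_normalizer hg), ← conj_inf, card_conj]

theorem bigZ {e : G} (he : e ∈ zpowers y0) : 27 ≤ Nat.card ↥(M ⊓ C1[e]) :=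
  D.cR ▸ card_le_of_le (le_inf (D.RB.trans (D.BM U)) fun _ hr => mem_cent1.2 (zp_comm he (D.cen hr)).symm.eq)

theorem TI : ∀ g ∈ M, ∀ u ∈ R, u ∈ cj[g] R → u ≠ 1 → g ∈ N[R] := by
  rintro g hg _ hu ⟨v, hv, rfl⟩ n
  change g * v * g⁻¹ ∈ R at hu
  change g * v * g⁻¹ ≠ 1 at n
  have h1 : g * y0 * g⁻¹ ∈ R := by
    by_cases k : v ∈ zpowers y0
    · obtain ⟨i, hi⟩ : y0 ∈ zpowers v :=
        eq_zpowers_of_card_prime (by rw [D.cZ]; norm_num) k (fun e => n (by simp [e])) ▸ mem_zpowers y0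
      rw [← show v ^ i = y0 from hi, ← conj_zpow]
      exact zpow_mem hu i
    · have := (D.Ce U F hv k).2
      refine (D.Ce U F hu fun c => ?_).1 ⟨conj_mem_of_mem_norm (le_normalizer hg) (D.BM U (D.RB D.y0R)), ?_⟩
      · have := D.cardc U F hg v ▸ D.bigZ U F c
        omega
      · rw [← conj_cent1]
        exact conj_mem_conj.2 (mem_cent1_comm.1 (D.cen hv))
  refine D.BN (D.NZ' U hg (by_contra fun k => ?_))
  have h2 := (D.Ce U F h1 k).2
  have := D.bigZ U F (mem_zpowers y0)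
  rw [D.cardc U F hg] at h2
  omega

theorem eq_H : M = H := by
  have s3 : IsPiHallOf {3} R M := syl_mk (by norm_num) (D.RB.trans (D.BM U)) D.pR fun k => by
    have := card_mul_relIndex (D.RB.trans (D.BM U))
    have h := card_subgroup_dvd_card M
    rw [F.card, ← this, D.cR] at h
    exact absurd ((Nat.mul_dvd_mul_left 27 k).trans h) (by norm_num)
  have h1 := sv_ti' (by norm_num) s3 (by rw [D.cR]; norm_num) (D.TI U F)
  rw [le_antisymm U.hR (le_inf (D.BM U) D.BN), D.cR, D.cB] at h1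
  have nd : ∀ p, ¬ p * p ∣ 86775571046077562880 → ∀ K : Subgroup G, ¬ p * p ∣ Nat.card K := fun p h K k =>
    h (F.card ▸ k.trans (card_subgroup_dvd_card K))
  have h2 := sv_syl (p := 7) (by norm_num) (syl_zp (by norm_num) (U.le D.sH) D.os (nd 7 (by norm_num) M))
  rw [(D.loc7 U F (U.le D.sH) D.os).2] at h2
  obtain ⟨i, hi, b, hb, d, hd, eM⟩ := exists_fac (F.card ▸ card_subgroup_dvd_card M)
  have h3 := card_dvd_of_le U.le
  rw [D.cH] at h3
  have h4 := sieveU i hi b hb d hd (eM ▸ Nat.mod_eq_zero_of_dvd h3) (eM ▸ F.okB M) (eM ▸ h2) (eM ▸ h1) (eM ▸ F.s11 M)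
  rw [← eM] at h4
  rcases h4 with e | e | e
  · exact (eq_of_le_of_card_ge U.le (by rw [e, D.cH])).symm
  · exfalso
    obtain ⟨u, hu, o⟩ := exists_mem_orderOf_eq (H := M) (p := 43) (by norm_num) (by rw [e]; norm_num)
    have cN := (F.big (43, 14) (by decide) u o).2
    obtain ⟨n, n1, n2, n3⟩ := sv_zp (by norm_num) (by rw [F.card]; norm_num) hu o cN
    rw [e] at n3
    obtain rfl := (show ∀ n ∈ dv 14, sv 5721408 43 (43 * n) → n = 14 by decide +kernel) n (mem_dv (by norm_num) n1) n3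
    obtain ⟨w, hw, o7⟩ := exists_mem_orderOf_eq (H := M ⊓ N[zpowers u]) (p := 7) (by norm_num) (by rw [n2]; norm_num)
    have h5 := sv_syl (p := 7) (by norm_num) (syl_zp (by norm_num) hw o7 (nd 7 (by norm_num) _))
    have h6 := card_dvd_of_le (inf_le_inf_right N[zpowers w] (inf_le_left : M ⊓ N[zpowers u] ≤ M))
    rw [(D.loc7 U F hw.1 o7).2] at h6
    rw [n2] at h5
    exact (show ∀ n ∈ dv 21, ¬ sv (43 * 14) 7 n by decide +kernel) _ (mem_dv (by norm_num) h6) h5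
  · exfalso
    obtain ⟨u, hu, o⟩ := exists_mem_orderOf_eq (H := M) (p := 23) (by norm_num) (by rw [e]; norm_num)
    obtain ⟨n, n1, n2, n3⟩ := sv_zp (by norm_num) (by rw [F.card]; norm_num) hu o (F.big (23, 22) (by decide) u o).2
    rw [e] at n3
    obtain rfl := (show ∀ n ∈ dv 22, sv 6267469824 23 (23 * n) → n = 1 by decide +kernel) n (mem_dv (by norm_num) n1) n3
    obtain ⟨K, k1, k2, k3⟩ := burn (by norm_num) hu o (nd 23 (by norm_num) M) n2
    obtain ⟨w, hw, o7⟩ := exists_mem_orderOf_eq (H := K) (p := 7) (by norm_num) (by omega)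
    have h5 := card_sup_mul_card_inf' (H := K) (K := M ⊓ N[zpowers w]) (inf_le_left.trans k2)
    rw [frattini_arg (p := 7) (by norm_num) (syl_zp (by norm_num) hw o7 (nd 7 (by norm_num) _)) k1 k2,
      (D.loc7 U F (k1 hw) o7).2, ← k3, mul_assoc] at h5
    have := Nat.eq_of_mul_eq_mul_left Nat.card_pos h5
    omega

end UD

theorem UD.coatom {G : Type*} [Group G] [Finite G] {R B H : Subgroup G} {y0 y1 t s a : G} (D : UD R B H y0 y1 t s a)
    (F : JF G) (h : ∀ M, H ≤ M → M ≠ ⊤ → UM R B H y0 y1 s M) : IsCoatom H :=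
  ⟨fun e => by have := D.cH; rw [e, card_top, F.card] at this; omega, fun M hM => by_contra fun k =>
    hM.ne' (D.eq_H (h M hM.le k) F)⟩

end Cfsg.Agent.J4U
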