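import Cfsg.Agent.J4U.E1
import Cfsg.Agent.J4U.E2

/-!
# Groups of type `J₄`: the maximal subgroup `U₃(3)`
-/

set_option autoImplicit false

namespace Cfsg.Agent.J4U

open Cfsg.Agent.J4M Cfsg.Agent.M24 Cfsg.Agent.TT Cfsg.Agent.GT Subgroup

theorem unf2 {f : ℕ → ℕ} {l m : List ℕ} {k : List ℕ → List ℕ → Bool}
    (h : mapK f l (fun S => mapK f m fun T => k S T) = true) : k (l.map f) (m.map f) = true := by
  rwa [mapK_eq, mapK_eq] at h

theorem u_E : lall uE (cosChk 29 3 43 1 [uSa, uSb] [uY1, uY2, uB, uW] uV) = true := lall_append (u_E0) (u_E1)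
theorem u_F : lall uF (invChk (uWS.map (pw mm mone [uY1, uY2, uB])) (uWT.map (pw mm mone [uY1, uY2, uB])) uJ [uY1,
  uY2, uB, uW] uA uG uGi) = true := lall_append (unf2 u_F0) (lall_append (unf2 u_F1) (lall_append (unf2 u_F2)
  (lall_append (unf2 u_F3) (lall_append (unf2 u_F4) (lall_append (unf2 u_F5) (lall_append (unf2 u_F6) (lall_append
  (unf2 u_F7) (unf2 u_F8))))))))

theorem coatom_u33 {G : Type*} [Group G] [Finite G] [IsSimpleGroup G] (F : JF G) (e : G ≃* Spor.J4) :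
    ∃ M : Subgroup G, IsCoatom M ∧ ∃ (F : Type) (_ : Field F) (_ : Fintype F), Fintype.card F = 9 ∧
      Nonempty (↥M ≃* Cfsg.PSU 3 F 3) := by
  obtain ⟨code, C, hv⟩ := exists_code e
  have v1 := valid_of_in (slp_in C hv u_slp1)
  have v2 := valid_of_in (slp_in C (fun s hs => (List.mem_append.1 hs).elim (hv s) (v1 s)) u_slp2)
  have vH : Valid code [uY1, uY2, uB, uW] := fun s hs => v1 s (by revert hs; simp; tauto)
  have vB : Valid code [uY1, uY2, uB] := fun s hs => v1 s (by revert hs; simp; tauto)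
  have vR : Valid code [uY1, uY2] := fun s hs => v1 s (by revert hs; simp; tauto)
  have vS : Valid code [uSa, uSb] := fun s hs => v2 s (by revert hs; simp; tauto)
  have vJ := valid_of_in (in_words C (fun s hs => by
    simp only [List.mem_cons, List.not_mem_nil, or_false] at hs
    rcases hs with rfl | rfl | rfl | rfl | rfl | rfl | rfl | rfl
    exacts [v1 _ (by simp), v1 _ (by simp), v1 _ (by simp), v2 _ (by simp), v2 _ (by simp), v2 _ (by simp),
      v1 _ (by simp), v1 _ (by simp)]) u_wJ)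
  obtain ⟨w1, w2, w3, w4, w5⟩ := u_w
  obtain ⟨s, sH, es⟩ := w1 ▸ in_pw C vH (nat_lit 0x33114131)
  obtain ⟨y0, y0R, e0⟩ := w2 ▸ in_pw C vR (nat_lit 0x221211)
  obtain ⟨y1, e1⟩ := v1 uY1 (by simp)
  obtain ⟨y2, e2⟩ := v1 uY2 (by simp)
  obtain ⟨b, eb⟩ := v1 uB (by simp)
  obtain ⟨w, ew⟩ := v1 uW (by simp)
  obtain ⟨z, ez⟩ := v1 uZ (by simp)
  obtain ⟨d, ed⟩ := v1 uD (by simp)
  obtain ⟨g, eg⟩ := v2 uG (by simp)
  obtain ⟨g', eg'⟩ := v2 uGi (by simp)
  have c1 : ∀ g, code g = mone ↔ g = 1 := fun g => by rw [← C.code_one, C.inj.eq_iff]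
  rw [← eg, ← eg', ← C.code_mul, c1] at w3
  obtain rfl := eq_inv_of_mul_eq_one_right w3
  rw [← eg, ← e0, ← e1, ← C.code_mul, ← C.code_mul, C.inj.eq_iff] at w4
  rw [← eg, ← eg', ← e0, ← C.code_mul, ← C.code_mul] at w5
  obtain ⟨k1, k2, k3, k4⟩ := u_chk
  obtain ⟨a1, a2, a3, a4, a5, a6, a7, a8, a9, a10⟩ := u_1
  obtain ⟨b1, b2, b3, b4, b5, b6⟩ := u_2
  obtain ⟨t1, t2, t3, t4⟩ := u_3
  obtain ⟨f1, f2, f3, f4, f5, f6⟩ := u_4
  rw [← eb, ← e0, ← e1, ← es] at a10
  simp only [C.cpow_code, ← C.code_mul, ne_eq, C.inj.eq_iff, c1] at a10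
  obtain ⟨a10, a11, a12⟩ := a10
  have o0 := ordP_sound C (by norm_num) e0 a1
  have o1 := ordP_sound C (by norm_num) e1 a2
  have ob := ordN_sound C eb a4
  have os := ordP_sound C (by norm_num) es a7
  have RB : gen code [uY1, uY2] ≤ gen code [uY1, uY2, uB] := gen_le fun g hg =>
    mem_gen_of_mem (List.mem_append_left [uB] hg)
  have BH : gen code [uY1, uY2, uB] ≤ gen code [uY1, uY2, uB, uW] :=
    gen_le fun g hg => mem_gen_of_mem (List.mem_append_left [uW] hg)
  have y1R : y1 ∈ gen code [uY1, uY2] := mem_gen_of_mem (by simp [e1])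
  have bB : b ∈ gen code [uY1, uY2, uB] := mem_gen_of_mem (by simp [eb])
  have cR : Nat.card (gen code [uY1, uY2]) = 27 :=
    le_antisymm ((chk_card C vR k1).trans (by decide +kernel)) (le_trans (by decide +kernel) (card_ge C vR k3))
  have cB : Nat.card (gen code [uY1, uY2, uB]) = 216 :=
    le_antisymm ((chk_card C vB k2).trans (by decide +kernel)) (Nat.le_of_dvd Nat.card_pos
      (Nat.Coprime.mul_dvd_of_dvd_of_dvd (by norm_num) (cR ▸ card_dvd_of_le RB) (ob ▸ orderOf_dvd_card_of_mem bB)))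
  obtain ⟨i⟩ := iso9 C (a := y1) (b := y2) (c := b) (d := w) (Ls := [uL0, uL1, uL2]) (by decide +kernel)
    (fun k => by rw [k, orderOf_one] at o1; omega) (by rw [e1, e2, eb, ew]; exact u_iso)
  rw [e1, e2, eb, ew] at i
  have cH := (Nat.card_congr i.toEquiv).trans card_su9
  have nr : ∀ {x : G} {c u v : ℕ}, code x = c → mm c uY1 = mm (pw mm mone [uY1, uY2] u) c →
      mm c uY2 = mm (pw mm mone [uY1, uY2] v) c → x ∈ N[gen code [uY1, uY2]] := fun k h1 h2 => by
    rw [← k, ← e1, ← e2] at h1 h2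
    rw [← e1, ← e2]
    exact nrm2_sound C h1 h2
  have BN : gen code [uY1, uY2, uB] ≤ N[gen code [uY1, uY2]] := gen_le fun g hg => by
    simp only [List.mem_cons, List.not_mem_nil, or_false] at hg
    rcases hg with k | k | k
    · exact le_normalizer (mem_gen_of_mem (by simp [k]))
    · exact le_normalizer (mem_gen_of_mem (by simp [k]))
    · exact nr k b1 b2
  have BZ := nrm_sound C e0 a5
  have tt : b ^ 4 * b ^ 4 = 1 := by rw [← pow_add, show 4 + 4 = orderOf b from ob.symm, pow_orderOf_eq_one]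
  have D : UD (gen code [uY1, uY2]) (gen code [uY1, uY2, uB]) (gen code [uY1, uY2, uB, uW]) y0 y1 (b ^ 4) s y1 :=
    ⟨RB, BH, cR, cB, cH, BN, BZ, y0R, o0, cen_sound C (e0 ▸ a6), y1R, o1, notPow_sound C e0 e1 o0 a3, pow_mem bB 4, tt,
      a10, by rw [inv_eq_of_mul_eq_one_right tt, eq_inv_iff_mul_eq_one, a11], fun x hx => by
        obtain ⟨γ, h1, ρ, h2, rfl⟩ := (chk_cons C vR k1).1 x hx
        rw [show uL2.gw.map _ = [] from rfl, gen_nil, mem_bot] at h1
        rw [h1, one_mul]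
        rcases h2 with rfl | ⟨u, hu, h2⟩
        · exact .inl (one_mem _)
        obtain ⟨c, hc⟩ := lall2_sound k4 u hu
        obtain ⟨β, h3, h4⟩ := in_pw C vB c
        simp only [force_eq, ← h2, ← h4, bor_eq, Bool.or_eq_true, Nat.beq_eq] at hc
        simp only [← e0, ← e1, ← C.code_mul, C.inj.eq_iff] at hc
        rcases hc with rfl | rfl | hc
        exacts [.inl (mem_zpowers _), .inl (mul_mem (mem_zpowers _) (mem_zpowers _)),
          .inr ⟨β, h3, by rw [hc, mul_inv_cancel_right]⟩],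
      sH, os, BH (RB y1R), nrm_sound C es a8 (mem_gen_of_mem (by simp [e1])), fun k => a12 (mem_cent1.1 k)⟩
  have gs : gen code [uS] = zpowers s := es ▸ gen_singleton C.inj
  have p7 := (cos_cover C vS vH (cen_sound C (es ▸ a9)) (gs ▸ zpowers_le.2 (self_mem_cent1 s)) (gs ▸ zpowers_le.2 sH)
    (by norm_num) (by norm_num) f1 f2 f3 u_E).2 (by rw [f4, gs, Nat.card_zpowers, os, (F.c7 s os).1])
  have pI := inv_cover C (valid_of_in (in_map C vB uWS)) (valid_of_in (in_map C vB uWT)) vH (y := y0) (g := g)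
    (gen_le_of_in C (in_map C vB uWS)) BZ BH (unf2 t4) (fun k hk => by
      obtain ⟨j, rfl⟩ := vJ k hk
      obtain ⟨c, hc⟩ := lall2_sound (force_eq _ _ ▸ u_J) _ hk
      simp only [band_eq, bor_eq, Bool.and_eq_true, Bool.or_eq_true, Nat.beq_eq] at hc
      obtain ⟨h1, h2, h3⟩ := hc
      rw [← C.code_mul, c1] at h1
      rw [← e0, ← C.code_mul, ← C.code_mul, C.inj.eq_iff] at h2
      refine ⟨j, rfl, h1, h2, ?_⟩
      rcases h3 with h3 | h3 | h3
      · exact .inl ((c1 j).1 h3 ▸ one_mem _)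
      · rw [← eb, C.cpow_code, C.inj.eq_iff] at h3
        exact .inl (h3 ▸ pow_mem bB 4)
      · exact .inr (bigQ_sound C vH (by norm_num) (by norm_num) h3)) f5
    (by rw [← w5, eg, eg']; exact u_F) (f6 ▸ F.i3 y0 o0)
  refine ⟨_, D.coatom F fun M hM n => ?_, F9, inferInstance, inferInstance, card_F9, ⟨i.trans psu9.symm⟩⟩
  have nb : ∀ x ∈ M, ¬ Big code 29 43 [uY1, uY2, uB, uW] x := fun x hx k =>
    n (F.top2 (cH ▸ card_dvd_of_le hM) (k M hM hx))
  refine ⟨hM, fun x hx => by_contra fun k => nb x hx.1 (p7 x hx.2 (gs ▸ k)),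
    fun j hj h1 h2 => (pI j h1 h2).1.resolve_right (nb j hj), ?_, fun j hj h1 h2 h3 => ?_⟩
  · have l1 : gen code [uY1, uY2, uB] ≤ M ⊓ N[gen code [uY1, uY2]] := le_inf (BH.trans hM) BN
    have n1 := F.n3 _ cR
    have z1 : z ∉ M := fun k => nb z k (bigQ_sound C vH (by norm_num) (by norm_num) (ez ▸ t1))
    have z2 : d ∉ M := fun k => nb d k (bigQ_sound C vH (by norm_num) (by norm_num) (ed ▸ t2))
    have z3 : d * z ∉ M := fun k => nb _ k (bigQ_sound C vH (by norm_num) (by norm_num)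
      (show bigQ 29 3 43 1 (code (d * z) :: _) _ = true by rw [C.code_mul, ed, ez]; exact t3))
    obtain ⟨m, hm⟩ := card_dvd_of_le l1
    have h1 := card_inf_mul_relIndex M N[gen code [uY1, uY2]]
    rw [hm, cB, n1] at h1
    have h2 : m * M.relIndex N[gen code [uY1, uY2]] = 4 :=
      Nat.eq_of_mul_eq_mul_left (by norm_num : 0 < 216) (by rw [← mul_assoc, h1])
    have h3 : m ≤ 4 := Nat.le_of_dvd (by norm_num) ⟨_, h2.symm⟩
    have h4 : m = 1 ∨ M.relIndex N[gen code [uY1, uY2]] = 2 ∨ M.relIndex N[gen code [uY1, uY2]] = 1 := by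
      interval_cases m <;> omega
    rcases h4 with rfl | h4 | h4
    · exact (eq_of_le_of_card_ge l1 (by omega)).ge
    · exact absurd ((mul_mem_iff_of_index_two h4 (a := ⟨d, nr ed b5 b6⟩) (b := ⟨z, nr ez b3 b4⟩)).2
        (iff_of_false z2 z1)) z3
    · exact absurd (relIndex_eq_one.1 h4 (nr ez b3 b4)) z1
  · have q : y1 = g * y0 * g⁻¹ := by rw [w4, mul_inv_cancel_right]
    have := (pI (g⁻¹ * j * g) (by
      calc _ = g⁻¹ * (j * j) * g := by group
        _ = 1 := by rw [h1]; group) (by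
      calc _ = g⁻¹ * (j * y1) * g := by rw [q]; group
        _ = _ := by rw [h2, q]; group)).2 (by
      calc _ = g⁻¹ * (j * y0) ^ 3 * g := by simp only [pow_succ, pow_zero]; group
        _ = 1 := by rw [h3]; group)
    rcases this with k | k
    · calc j = g * (g⁻¹ * j * g) * g⁻¹ := by group
        _ = 1 := by rw [k]; group
    · exact absurd k (nb _ (by simpa [mul_assoc] using hj))

end Cfsg.Agent.J4U
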